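import Mathlib

set_option autoImplicit false
set_option linter.unusedSectionVars false
set_option linter.unusedVariables false

namespace Cfsg.Agent.Lib.Helper23.Jordan

open Matrix

variable {ι : Type*} [Fintype ι] [DecidableEq ι]

noncomputable def q (v : ι → ℂ) : ℝ := ∑ i, Complex.normSq (v i)

noncomputable def ip (x y : ι → ℂ) : ℂ := star x ⬝ᵥ y

noncomputable def rho (X : Matrix ι ι ℂ) (w : ι → ℂ) : ℝ := (ip w (X *ᵥ w)).re

noncomputable def qF (X : Matrix ι ι ℂ) : ℝ := ∑ j, q (fun i => X i j)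

theorem q_nonneg (v : ι → ℂ) : 0 ≤ q v :=
  Finset.sum_nonneg (fun i _ => Complex.normSq_nonneg _)

theorem q_eq_zero_iff (v : ι → ℂ) : q v = 0 ↔ v = 0 := by
  unfold q
  rw [Finset.sum_eq_zero_iff_of_nonneg (fun i _ => Complex.normSq_nonneg _)]
  constructor
  · intro h
    funext i
    exact Complex.normSq_eq_zero.mp (h i (Finset.mem_univ i))
  · intro h i _
    rw [h]; simp

theorem q_zero : q (0 : ι → ℂ) = 0 := (q_eq_zero_iff 0).mpr rfl

theorem ip_self (x : ι → ℂ) : ip x x = (q x : ℂ) := by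
  unfold ip q
  rw [dotProduct]
  push_cast
  refine Finset.sum_congr rfl (fun i _ => ?_)
  rw [Complex.normSq_eq_conj_mul_self]
  rfl

theorem ip_conj (x y : ι → ℂ) : ip y x = (starRingEnd ℂ) (ip x y) := by
  unfold ip
  rw [dotProduct, dotProduct, map_sum]
  refine Finset.sum_congr rfl (fun i _ => ?_)
  simp [mul_comm]

theorem ip_re_comm (x y : ι → ℂ) : (ip y x).re = (ip x y).re := by
  rw [ip_conj x y, Complex.conj_re]

theorem ip_smul_right (c : ℂ) (x y : ι → ℂ) : ip x (c • y) = c * ip x y := by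
  unfold ip
  rw [dotProduct_smul, smul_eq_mul]

theorem ip_smul_left (c : ℂ) (x y : ι → ℂ) : ip (c • x) y = (starRingEnd ℂ) c * ip x y := by
  unfold ip
  rw [star_smul, smul_dotProduct, smul_eq_mul]
  rfl

theorem ip_sum_right {κ : Type*} (s : Finset κ) (x : ι → ℂ) (y : κ → ι → ℂ) :
    ip x (∑ k ∈ s, y k) = ∑ k ∈ s, ip x (y k) := by
  unfold ip
  rw [dotProduct_sum]

theorem ip_sum_left {κ : Type*} (s : Finset κ) (x : κ → ι → ℂ) (y : ι → ℂ) :
    ip (∑ k ∈ s, x k) y = ∑ k ∈ s, ip (x k) y := by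
  unfold ip
  rw [star_sum, sum_dotProduct]

theorem q_sub (a b : ι → ℂ) : q (a - b) = q a + q b - 2 * (ip a b).re := by
  unfold q ip
  rw [dotProduct, Complex.re_sum, Finset.mul_sum, ← Finset.sum_add_distrib,
    ← Finset.sum_sub_distrib]
  refine Finset.sum_congr rfl (fun i _ => ?_)
  rw [Pi.sub_apply, Complex.normSq_sub]
  have : (a i * (starRingEnd ℂ) (b i)).re = (star a i * b i).re := by
    simp [Complex.mul_re]
  rw [this]

theorem q_sub_le (a b : ι → ℂ) : q (a - b) ≤ 2 * q a + 2 * q b := by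
  unfold q
  rw [Finset.mul_sum, Finset.mul_sum, ← Finset.sum_add_distrib]
  refine Finset.sum_le_sum (fun i _ => ?_)
  rw [Pi.sub_apply]
  have h1 := Complex.normSq_sub (a i) (b i)
  have h2 := Complex.normSq_add (a i) (b i)
  have h3 := Complex.normSq_nonneg (a i + b i)
  linarith

theorem ip_unitary (U : Matrix ι ι ℂ) (hU : star U * U = 1) (x y : ι → ℂ) :
    ip (U *ᵥ x) (U *ᵥ y) = ip x y := by
  unfold ip
  rw [star_mulVec, dotProduct_mulVec, vecMul_vecMul]
  have : Uᴴ * U = 1 := hU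
  rw [this, vecMul_one]

theorem q_unitary (U : Matrix ι ι ℂ) (hU : star U * U = 1) (x : ι → ℂ) :
    q (U *ᵥ x) = q x := by
  have h := ip_unitary U hU x x
  rw [ip_self, ip_self] at h
  exact_mod_cast h

theorem rho_star (X : Matrix ι ι ℂ) (w : ι → ℂ) : rho (star X) w = rho X w := by
  unfold rho
  have h : ip w (star X *ᵥ w) = ip (X *ᵥ w) w := by
    unfold ip
    rw [star_mulVec, dotProduct_mulVec]
    rfl
  rw [h, ip_re_comm]

theorem q_shift (D : Matrix ι ι ℂ) (hD : star D * D = 1) (c : ℝ) (w : ι → ℂ) :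
    q ((D - (c : ℂ) • (1 : Matrix ι ι ℂ)) *ᵥ w) = (1 + c ^ 2) * q w - 2 * c * rho D w := by
  rw [sub_mulVec, smul_mulVec, one_mulVec, q_sub, q_unitary D hD]
  have h1 : q ((c : ℂ) • w) = c ^ 2 * q w := by
    unfold q
    rw [Finset.mul_sum]
    refine Finset.sum_congr rfl (fun i _ => ?_)
    rw [Pi.smul_apply, smul_eq_mul, Complex.normSq_mul, Complex.normSq_ofReal]
    ring
  have h2 : (ip (D *ᵥ w) ((c : ℂ) • w)).re = c * rho D w := by
    rw [ip_smul_right, Complex.re_ofReal_mul, ip_re_comm]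
    rfl
  rw [h1, h2]
  ring

theorem q_one_sub (B : Matrix ι ι ℂ) (hB : star B * B = 1) (w : ι → ℂ) :
    q ((B - 1) *ᵥ w) = 2 * q w - 2 * rho B w := by
  have h := q_shift B hB 1 w
  simp only [Complex.ofReal_one, one_smul] at h
  rw [h]; ring

theorem qF_nonneg (X : Matrix ι ι ℂ) : 0 ≤ qF X :=
  Finset.sum_nonneg (fun j _ => q_nonneg _)

theorem qF_eq_zero_iff (X : Matrix ι ι ℂ) : qF X = 0 ↔ X = 0 := by
  unfold qF
  rw [Finset.sum_eq_zero_iff_of_nonneg (fun j _ => q_nonneg _)]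
  constructor
  · intro h
    ext i j
    have := (q_eq_zero_iff _).mp (h j (Finset.mem_univ j))
    exact congrFun this i
  · intro h j _
    rw [h]
    exact (q_eq_zero_iff _).mpr rfl

theorem qF_star (X : Matrix ι ι ℂ) : qF (star X) = qF X := by
  unfold qF q
  rw [Finset.sum_comm]
  refine Finset.sum_congr rfl (fun i _ => Finset.sum_congr rfl (fun j _ => ?_))
  show Complex.normSq (star (X j i)) = Complex.normSq (X j i)
  exact Complex.normSq_conj _

theorem col_mul (A X : Matrix ι ι ℂ) (j : ι) :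
    (fun i => (A * X) i j) = A *ᵥ (fun i => X i j) := by
  funext i
  rw [Matrix.mul_apply]
  rfl

theorem qF_mul_le (A Y : Matrix ι ι ℂ) (r2 : ℝ) (h : ∀ w, q (A *ᵥ w) ≤ r2 * q w) :
    qF (A * Y) ≤ r2 * qF Y := by
  unfold qF
  rw [Finset.mul_sum]
  refine Finset.sum_le_sum (fun j _ => ?_)
  rw [col_mul]
  exact h _

theorem qF_mul_le' (A Y : Matrix ι ι ℂ) (r2 : ℝ) (h : ∀ w, q (star A *ᵥ w) ≤ r2 * q w) :
    qF (Y * A) ≤ r2 * qF Y := by
  rw [← qF_star (Y * A), star_mul, ← qF_star Y]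
  exact qF_mul_le (star A) (star Y) r2 h

theorem qF_mul_unitary (X W : Matrix ι ι ℂ) (hW : W * star W = 1) : qF (X * W) = qF X := by
  rw [← qF_star (X * W), star_mul, ← qF_star X]
  unfold qF
  refine Finset.sum_congr rfl (fun j _ => ?_)
  rw [col_mul]
  exact q_unitary (star W) (by rw [star_star]; exact hW) _

theorem qF_sub_le (X Z : Matrix ι ι ℂ) : qF (X - Z) ≤ 2 * qF X + 2 * qF Z := by
  unfold qF
  rw [Finset.mul_sum, Finset.mul_sum, ← Finset.sum_add_distrib]
  refine Finset.sum_le_sum (fun j _ => ?_)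
  exact q_sub_le (fun i => X i j) (fun i => Z i j)

theorem trace_star_mul_mul (P B : Matrix ι ι ℂ) :
    ((star P * B * P).trace).re = ∑ j, rho B (fun i => P i j) := by
  unfold rho ip
  rw [Matrix.trace, Complex.re_sum]
  refine Finset.sum_congr rfl (fun j _ => ?_)
  congr 1
  rw [Matrix.diag_apply, Matrix.mul_assoc, Matrix.mul_apply, dotProduct]
  refine Finset.sum_congr rfl (fun a _ => ?_)
  rw [← col_mul]
  rfl

end Cfsg.Agent.Lib.Helper23.Jordan
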