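import Mathlib
import Cfsg.Prelude.Def_Characters
import Cfsg.Agent.Lib.Helper23.Jordan1

set_option autoImplicit false
set_option linter.unusedSectionVars false
set_option linter.unusedVariables false

namespace Cfsg.Agent.Lib.Helper23.Jordan

open Matrix
open scoped MatrixOrder ComplexOrder

theorem exists_sqrt' {ι : Type*} [Fintype ι] [DecidableEq ι] (P : Matrix ι ι ℂ) (hP : P.PosDef) :
    ∃ B : Matrix ι ι ℂ, IsUnit B.det ∧ star B * B = P := by
  have h0 : (0 : Matrix ι ι ℂ) ≤ P := hP.posSemidef.nonneg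
  have hS0 : (0 : Matrix ι ι ℂ) ≤ CFC.sqrt P := CFC.sqrt_nonneg P
  have hsa : IsSelfAdjoint (CFC.sqrt P) := IsSelfAdjoint.of_nonneg hS0
  have hmul : CFC.sqrt P * CFC.sqrt P = P := CFC.sqrt_mul_sqrt_self P h0
  refine ⟨CFC.sqrt P, ?_, ?_⟩
  · have hdet : (CFC.sqrt P).det * (CFC.sqrt P).det = P.det := by
      rw [← Matrix.det_mul, hmul]
    have hPdet : P.det ≠ 0 := (hP.det_pos).ne'
    rw [isUnit_iff_ne_zero]
    intro h
    rw [h, mul_zero] at hdet
    exact hPdet hdet.symm
  · rw [hsa.star_eq, hmul]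

theorem unitarize {G : Type*} [Group G] [Finite G] (χ : G → ℂ) (hχ : Cfsg.IsCharacter G χ) :
    ∃ (n : ℕ) (U : G →* Matrix (Fin n) (Fin n) ℂ),
      (∀ g, star (U g) * U g = 1) ∧ (∀ g, (U g).trace = χ g) := by
  classical
  obtain ⟨n, ρ, rfl⟩ := hχ
  haveI : Fintype G := Fintype.ofFinite G
  let M : G → Matrix (Fin n) (Fin n) ℂ := fun g => LinearMap.toMatrix' (ρ g)
  have hM1 : M 1 = 1 := by
    show LinearMap.toMatrix' (ρ 1) = 1
    rw [map_one]
    exact LinearMap.toMatrix'_one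
  have hMmul : ∀ g h, M (g * h) = M g * M h := by
    intro g h
    show LinearMap.toMatrix' (ρ (g * h)) = _
    rw [map_mul]
    exact LinearMap.toMatrix'_mul _ _
  let P : Matrix (Fin n) (Fin n) ℂ := ∑ x : G, star (M x) * M x
  have hPinv : ∀ g, star (M g) * P * M g = P := by
    intro g
    show star (M g) * (∑ x : G, star (M x) * M x) * M g = ∑ x : G, star (M x) * M x
    rw [Finset.mul_sum, Finset.sum_mul]
    refine Fintype.sum_equiv (Equiv.mulRight g) _ _ (fun x => ?_)
    simp only [Equiv.coe_mulRight]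
    rw [hMmul, star_mul]
    simp only [Matrix.mul_assoc]
  have hPpd : P.PosDef := by
    have h1 : P = star (M 1) * M 1 + ∑ x ∈ Finset.univ.erase (1 : G), star (M x) * M x :=
      (Finset.add_sum_erase Finset.univ (fun x => star (M x) * M x) (Finset.mem_univ 1)).symm
    rw [h1, hM1, star_one, one_mul]
    refine Matrix.PosDef.add_posSemidef Matrix.PosDef.one ?_
    exact Matrix.posSemidef_sum _ (fun x _ => Matrix.posSemidef_conjTranspose_mul_self (M x))
  obtain ⟨B, hBdet, hB⟩ := exists_sqrt' P hPpd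
  have hBB : B * B⁻¹ = 1 := Matrix.mul_nonsing_inv B hBdet
  have hBB' : B⁻¹ * B = 1 := Matrix.nonsing_inv_mul B hBdet
  let U : G →* Matrix (Fin n) (Fin n) ℂ :=
    { toFun := fun g => B * M g * B⁻¹
      map_one' := by rw [hM1, Matrix.mul_one, hBB]
      map_mul' := fun g h => by
        rw [hMmul]
        calc B * (M g * M h) * B⁻¹ = B * M g * 1 * M h * B⁻¹ := by
              simp only [Matrix.mul_assoc, Matrix.one_mul]
          _ = B * M g * (B⁻¹ * B) * M h * B⁻¹ := by rw [hBB']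
          _ = B * M g * B⁻¹ * (B * M h * B⁻¹) := by simp only [Matrix.mul_assoc] }
  refine ⟨n, U, ?_, ?_⟩
  · intro g
    show star (B * M g * B⁻¹) * (B * M g * B⁻¹) = 1
    have h1 : star (B * M g * B⁻¹) * (B * M g * B⁻¹)
        = star B⁻¹ * (star (M g) * (star B * B) * M g) * B⁻¹ := by
      rw [star_mul, star_mul]
      simp only [Matrix.mul_assoc]
    rw [h1, hB, hPinv g, ← hB]
    have h2 : star B⁻¹ * (star B * B) * B⁻¹ = star (B * B⁻¹) * (B * B⁻¹) := by
      rw [star_mul]
      simp only [Matrix.mul_assoc]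
    rw [h2, hBB, star_one, one_mul]
  · intro g
    show (B * M g * B⁻¹).trace = ρ.character g
    rw [Matrix.trace_mul_comm, ← Matrix.mul_assoc, hBB', Matrix.one_mul]
    show (LinearMap.toMatrix' (ρ g)).trace = LinearMap.trace ℂ _ (ρ g)
    rw [LinearMap.trace_eq_matrix_trace ℂ (Pi.basisFun ℂ (Fin n)) (ρ g),
      LinearMap.toMatrix_eq_toMatrix']

end Cfsg.Agent.Lib.Helper23.Jordan
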