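import Mathlib
import Cfsg.Agent.Lib.Helper23.Jordan1

set_option autoImplicit false
set_option linter.unusedSectionVars false
set_option linter.unusedVariables false

namespace Cfsg.Agent.Lib.Helper23.Jordan

open Matrix

noncomputable def c0 : ℝ := Real.sqrt 3 / 2

theorem c0_pos : 0 < c0 := by unfold c0; positivity

theorem c0_sq : c0 ^ 2 = 3 / 4 := by
  unfold c0
  rw [div_pow, Real.sq_sqrt (by norm_num)]
  norm_num

theorem c0_lt_one : c0 < 1 := by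
  have h := c0_sq
  have h2 := c0_pos
  nlinarith

variable {G : Type*} [Group G] {n : ℕ}

def SS (U : G →* Matrix (Fin n) (Fin n) ℂ) : Set G :=
  {g | ∃ γ : ℝ, c0 < γ ∧ ∀ w, γ * q w ≤ rho (U g) w}

def SB (U : G →* Matrix (Fin n) (Fin n) ℂ) : Set G :=
  {g | ∀ w, c0 * q w ≤ rho (U g) w}

variable (U : G →* Matrix (Fin n) (Fin n) ℂ) (hU : ∀ g, star (U g) * U g = 1)

include hU

theorem star_eq_inv (g : G) : star (U g) = U g⁻¹ := by
  have h1 : U g * U g⁻¹ = 1 := by rw [← map_mul, mul_inv_cancel, map_one]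
  calc star (U g) = star (U g) * (U g * U g⁻¹) := by rw [h1, Matrix.mul_one]
    _ = (star (U g) * U g) * U g⁻¹ := by rw [Matrix.mul_assoc]
    _ = U g⁻¹ := by rw [hU g, Matrix.one_mul]

theorem mul_star (g : G) : U g * star (U g) = 1 := by
  rw [star_eq_inv U hU, ← map_mul, mul_inv_cancel, map_one]

omit hU in
theorem SS_sub_SB : SS U ⊆ SB U := by
  rintro g ⟨γ, hγ, h⟩ w
  exact le_trans (mul_le_mul_of_nonneg_right hγ.le (q_nonneg w)) (h w)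

theorem SS_inv {g : G} (hg : g ∈ SS U) : g⁻¹ ∈ SS U := by
  obtain ⟨γ, hγ, h⟩ := hg
  refine ⟨γ, hγ, fun w => ?_⟩
  rw [← star_eq_inv U hU, rho_star]
  exact h w

theorem rho_conj (x g : G) (w : Fin n → ℂ) :
    rho (U (x * g * x⁻¹)) w = rho (U g) (U x⁻¹ *ᵥ w) := by
  unfold rho
  rw [map_mul, map_mul]
  have h1 : (U x * U g * U x⁻¹) *ᵥ w = U x *ᵥ (U g *ᵥ (U x⁻¹ *ᵥ w)) := by
    rw [Matrix.mulVec_mulVec, Matrix.mulVec_mulVec]
  rw [h1]
  have h2 := ip_unitary (U x⁻¹) (hU x⁻¹) w (U x *ᵥ (U g *ᵥ (U x⁻¹ *ᵥ w)))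
  rw [← h2]
  congr 1
  rw [Matrix.mulVec_mulVec, ← map_mul, inv_mul_cancel, map_one, Matrix.one_mulVec]

theorem SS_conj {g : G} (hg : g ∈ SS U) (x : G) : x * g * x⁻¹ ∈ SS U := by
  obtain ⟨γ, hγ, h⟩ := hg
  refine ⟨γ, hγ, fun w => ?_⟩
  rw [rho_conj U hU, ← q_unitary (U x⁻¹) (hU x⁻¹) w]
  exact h _

theorem SS_bound {g : G} (hg : g ∈ SS U) :
    ∃ r2 : ℝ, 0 ≤ r2 ∧ 4 * r2 < 1 ∧
      (∀ w, q ((U g - (c0 : ℂ) • (1 : Matrix (Fin n) (Fin n) ℂ)) *ᵥ w) ≤ r2 * q w) ∧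
      (∀ w, q (star (U g - (c0 : ℂ) • (1 : Matrix (Fin n) (Fin n) ℂ)) *ᵥ w) ≤ r2 * q w) := by
  obtain ⟨γ, hγ, h⟩ := hg
  have hc := c0_pos
  have hc2 := c0_sq
  refine ⟨max (1 + c0 ^ 2 - 2 * c0 * γ) 0, le_max_right _ _, ?_, ?_, ?_⟩
  · rcases max_cases (1 + c0 ^ 2 - 2 * c0 * γ) 0 with ⟨h1, _⟩ | ⟨h1, _⟩
    · rw [h1]; nlinarith
    · rw [h1]; norm_num
  · intro w
    rw [q_shift (U g) (hU g) c0 w]
    have h1 := h w
    have h2 := q_nonneg w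
    have h3 : (1 + c0 ^ 2) * q w - 2 * c0 * rho (U g) w ≤ (1 + c0 ^ 2 - 2 * c0 * γ) * q w := by
      nlinarith
    exact le_trans h3 (mul_le_mul_of_nonneg_right (le_max_left _ _) h2)
  · intro w
    have hstar : star (U g - (c0 : ℂ) • (1 : Matrix (Fin n) (Fin n) ℂ))
        = U g⁻¹ - (c0 : ℂ) • (1 : Matrix (Fin n) (Fin n) ℂ) := by
      rw [star_sub, star_smul, star_one, star_eq_inv U hU]
      congr 2
      exact Complex.conj_ofReal c0
    rw [hstar, q_shift (U g⁻¹) (hU g⁻¹) c0 w]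
    have h1 : γ * q w ≤ rho (U g⁻¹) w := by
      rw [← star_eq_inv U hU, rho_star]; exact h w
    have h2 := q_nonneg w
    have h3 : (1 + c0 ^ 2) * q w - 2 * c0 * rho (U g⁻¹) w ≤ (1 + c0 ^ 2 - 2 * c0 * γ) * q w := by
      nlinarith
    exact le_trans h3 (mul_le_mul_of_nonneg_right (le_max_left _ _) h2)

theorem SB_iff (b : G) :
    b ∈ SB U ↔ ∀ w, q ((U b - 1) *ᵥ w) ≤ (2 - 2 * c0) * q w := by
  constructor
  · intro h w
    rw [q_one_sub (U b) (hU b) w]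
    have := h w
    linarith
  · intro h w
    have h1 := h w
    rw [q_one_sub (U b) (hU b) w] at h1
    linarith

theorem comm_identity (g b : G) :
    U (g * b * g⁻¹ * b⁻¹) - 1
      = -(((U b - 1) * (U g - (c0 : ℂ) • (1 : Matrix (Fin n) (Fin n) ℂ))
          - (U g - (c0 : ℂ) • (1 : Matrix (Fin n) (Fin n) ℂ)) * (U b - 1))
        * (star (U g) * star (U b))) := by
  have hc : ∀ X : Matrix (Fin n) (Fin n) ℂ, X * ((c0 : ℂ) • (1 : Matrix (Fin n) (Fin n) ℂ))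
      = ((c0 : ℂ) • (1 : Matrix (Fin n) (Fin n) ℂ)) * X := by
    intro X
    rw [Matrix.mul_smul, Matrix.smul_mul, Matrix.mul_one, Matrix.one_mul]
  have h1 : (U b - 1) * (U g - (c0 : ℂ) • (1 : Matrix (Fin n) (Fin n) ℂ))
      - (U g - (c0 : ℂ) • (1 : Matrix (Fin n) (Fin n) ℂ)) * (U b - 1)
      = U b * U g - U g * U b := by
    generalize ((c0 : ℂ) • (1 : Matrix (Fin n) (Fin n) ℂ)) = C0 at hc ⊢
    simp only [sub_mul, mul_sub, mul_one, one_mul]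
    rw [hc (U b)]
    abel
  rw [h1, Matrix.sub_mul]
  have h2 : U b * U g * (star (U g) * star (U b)) = 1 := by
    rw [Matrix.mul_assoc, ← Matrix.mul_assoc (U g), mul_star U hU, Matrix.one_mul, mul_star U hU]
  have h3 : U g * U b * (star (U g) * star (U b)) = U (g * b * g⁻¹ * b⁻¹) := by
    rw [star_eq_inv U hU, star_eq_inv U hU, ← map_mul, ← map_mul, ← map_mul]
    congr 1
    group
  rw [h2, h3]
  abel

theorem SB_comm {g b : G} (hg : g ∈ SS U) (hb : b ∈ SB U) : g * b * g⁻¹ * b⁻¹ ∈ SB U := by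
  obtain ⟨r2, hr0, hr1, hr2, -⟩ := SS_bound U hU hg
  rw [SB_iff U hU] at hb ⊢
  intro v
  have hκ : 0 ≤ 2 - 2 * c0 := by have := c0_lt_one; linarith
  rw [comm_identity U hU, Matrix.neg_mulVec]
  have hneg : ∀ y : Fin n → ℂ, q (-y) = q y := by
    intro y
    unfold q
    refine Finset.sum_congr rfl (fun i _ => ?_)
    rw [Pi.neg_apply, Complex.normSq_neg]
  rw [hneg, ← Matrix.mulVec_mulVec]
  set w := (star (U g) * star (U b)) *ᵥ v with hw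
  have hqw : q w = q v := by
    rw [hw, ← Matrix.mulVec_mulVec, star_eq_inv U hU, star_eq_inv U hU,
      q_unitary _ (hU g⁻¹), q_unitary _ (hU b⁻¹)]
  rw [Matrix.sub_mulVec, ← Matrix.mulVec_mulVec, ← Matrix.mulVec_mulVec]
  set C := U g - (c0 : ℂ) • (1 : Matrix (Fin n) (Fin n) ℂ) with hC
  have e1 := q_sub_le ((U b - 1) *ᵥ (C *ᵥ w)) (C *ᵥ ((U b - 1) *ᵥ w))
  have e2 := hb (C *ᵥ w)
  have e3 := hr2 w
  have e4 := hr2 ((U b - 1) *ᵥ w)
  have e5 := hb w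
  have e6 := q_nonneg w
  have e7 : q ((U b - 1) *ᵥ (C *ᵥ w)) ≤ (2 - 2 * c0) * (r2 * q w) :=
    le_trans e2 (mul_le_mul_of_nonneg_left e3 hκ)
  have e8 : q (C *ᵥ ((U b - 1) *ᵥ w)) ≤ r2 * ((2 - 2 * c0) * q w) :=
    le_trans e4 (mul_le_mul_of_nonneg_left e5 hr0)
  rw [← hqw]
  have e9 : 0 ≤ (2 - 2 * c0) * q w := mul_nonneg hκ e6
  nlinarith

theorem qF_comm_le {g : G} (hg : g ∈ SS U) :
    ∃ r2 : ℝ, 0 ≤ r2 ∧ 4 * r2 < 1 ∧
      ∀ b : G, qF (U (g * b * g⁻¹ * b⁻¹) - 1) ≤ 4 * r2 * qF (U b - 1) := by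
  obtain ⟨r2, hr0, hr1, hr2, hr3⟩ := SS_bound U hU hg
  refine ⟨r2, hr0, hr1, fun b => ?_⟩
  rw [comm_identity U hU]
  have hneg : ∀ Y : Matrix (Fin n) (Fin n) ℂ, qF (-Y) = qF Y := by
    intro Y
    unfold qF q
    refine Finset.sum_congr rfl (fun j _ => Finset.sum_congr rfl (fun i _ => ?_))
    show Complex.normSq (-(Y i j)) = Complex.normSq (Y i j)
    exact Complex.normSq_neg _
  have hW : (star (U g) * star (U b)) * star (star (U g) * star (U b)) = 1 := by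
    rw [star_mul, star_star, star_star, Matrix.mul_assoc, ← Matrix.mul_assoc (star (U b)),
      hU b, Matrix.one_mul, hU g]
  rw [hneg, qF_mul_unitary _ _ hW]
  set C := U g - (c0 : ℂ) • (1 : Matrix (Fin n) (Fin n) ℂ) with hC
  have e1 := qF_sub_le ((U b - 1) * C) (C * (U b - 1))
  have e2 := qF_mul_le' C (U b - 1) r2 hr3
  have e3 := qF_mul_le C (U b - 1) r2 hr2
  linarith

end Cfsg.Agent.Lib.Helper23.Jordan
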