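import Mathlib
import Cfsg.Agent.Lib.Helper23.Jordan3

set_option autoImplicit false
set_option linter.unusedSectionVars false
set_option linter.unusedVariables false

namespace Cfsg.Agent.Lib.Helper23.Jordan

open Matrix

variable {G : Type*} [Group G] [Finite G] {n : ℕ}

omit [Finite G] in
theorem conj_pow (g b : G) (hcomm : g * (g * b * g⁻¹ * b⁻¹) = (g * b * g⁻¹ * b⁻¹) * g) (k : ℕ) :
    g ^ k * b * (g ^ k)⁻¹ = (g * b * g⁻¹ * b⁻¹) ^ k * b := by
  induction k with
  | zero => simp
  | succ k ih =>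
    generalize hc : g * b * g⁻¹ * b⁻¹ = c at hcomm ih ⊢
    have h1 : g * b * g⁻¹ = c * b := by rw [← hc]; group
    have hck : g * c ^ k = c ^ k * g := (Commute.pow_right (show Commute g c from hcomm) k)
    calc g ^ (k + 1) * b * (g ^ (k + 1))⁻¹ = g * (g ^ k * b * (g ^ k)⁻¹) * g⁻¹ := by
          rw [pow_succ']; group
      _ = g * (c ^ k * b) * g⁻¹ := by rw [ih]
      _ = (g * c ^ k) * b * g⁻¹ := by group
      _ = c ^ k * (g * b * g⁻¹) := by rw [hck]; group
      _ = c ^ k * (c * b) := by rw [h1]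
      _ = c ^ (k + 1) * b := by rw [pow_succ]; group

variable (U : G →* Matrix (Fin n) (Fin n) ℂ) (hU : ∀ g, star (U g) * U g = 1)
  (hfa : ∀ g, U g = 1 → g = 1)

include hU hfa

theorem frob {g b : G} (hb : b ∈ SB U)
    (hcomm : g * (g * b * g⁻¹ * b⁻¹) = (g * b * g⁻¹ * b⁻¹) * g) :
    g * b * g⁻¹ * b⁻¹ = 1 := by
  classical
  have hcp := conj_pow g b hcomm
  generalize hc : g * b * g⁻¹ * b⁻¹ = c at hcomm hcp ⊢
  haveI : Fintype (Subgroup.zpowers c) := Fintype.ofFinite _
  set m : ℂ := (Nat.card (Subgroup.zpowers c) : ℂ) with hm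
  have hm0 : m ≠ 0 := by rw [hm]; exact_mod_cast (Nat.card_pos).ne'
  set S0 : Matrix (Fin n) (Fin n) ℂ := ∑ x : Subgroup.zpowers c, U (x : G) with hS0
  have hcard : (Fintype.card (Subgroup.zpowers c) : ℂ) = m := by
    rw [hm, Nat.card_eq_fintype_card]
  have ha : ∀ y : Subgroup.zpowers c, U (y : G) * S0 = S0 := by
    intro y
    rw [hS0, Finset.mul_sum]
    refine Fintype.sum_equiv (Equiv.mulLeft y) _ _ (fun x => ?_)
    simp only [Equiv.coe_mulLeft, Subgroup.coe_mul, map_mul]
  have hb2 : S0 * S0 = m • S0 := by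
    have h1 : S0 * S0 = ∑ y : Subgroup.zpowers c, U (y : G) * S0 := by
      conv_lhs => rw [hS0, Finset.sum_mul]
    rw [h1, Finset.sum_congr rfl (fun y _ => ha y), Finset.sum_const, Finset.card_univ,
      ← hcard, Nat.cast_smul_eq_nsmul]
  have hc2 : star S0 = S0 := by
    rw [hS0, star_sum]
    refine Fintype.sum_equiv (Equiv.inv _) _ _ (fun x => ?_)
    simp only [Equiv.inv_apply, Subgroup.coe_inv]
    exact star_eq_inv U hU _
  have hd : (S0 * U b).trace = m * (U b).trace := by
    rw [hS0, Finset.sum_mul, Matrix.trace_sum]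
    have h1 : ∀ x : Subgroup.zpowers c, (U (x : G) * U b).trace = (U b).trace := by
      intro x
      obtain ⟨k, hk⟩ := (mem_powers_iff_mem_zpowers.mpr x.2)
      have hk' : c ^ k = (x : G) := hk
      rw [← map_mul, ← hk', ← hcp k, map_mul, map_mul, Matrix.trace_mul_comm,
        ← Matrix.mul_assoc, ← map_mul, inv_mul_cancel, map_one, Matrix.one_mul]
    rw [Finset.sum_congr rfl (fun x _ => h1 x), Finset.sum_const, Finset.card_univ,
      nsmul_eq_mul, hcard]
  set P : Matrix (Fin n) (Fin n) ℂ := 1 - m⁻¹ • S0 with hP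
  have hmstar : star m⁻¹ = m⁻¹ := by
    rw [hm]; simp
  have hPstar : star P = P := by
    rw [hP, star_sub, star_one, star_smul, hc2, hmstar]
  have hEE : (m⁻¹ • S0) * (m⁻¹ • S0) = m⁻¹ • S0 := by
    rw [Matrix.smul_mul, Matrix.mul_smul, hb2, smul_smul, smul_smul, mul_assoc,
      inv_mul_cancel₀ hm0, mul_one]
  have hPP : P * P = P := by
    rw [hP]
    generalize m⁻¹ • S0 = E at hEE
    simp only [sub_mul, mul_sub, one_mul, mul_one, hEE]
    abel
  have htr : (P * U b).trace = 0 := by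
    rw [hP, sub_mul, one_mul, Matrix.trace_sub, Matrix.smul_mul, Matrix.trace_smul, hd,
      smul_eq_mul, ← mul_assoc, inv_mul_cancel₀ hm0, one_mul, sub_self]
  have hsum : ∑ j, rho (U b) (fun i => P i j) = 0 := by
    rw [← trace_star_mul_mul, hPstar, Matrix.trace_mul_cycle, hPP, htr]
    rfl
  have hqF : qF P ≤ 0 := by
    have h1 : ∑ j, c0 * q (fun i => P i j) ≤ ∑ j, rho (U b) (fun i => P i j) :=
      Finset.sum_le_sum (fun j _ => hb _)
    rw [hsum, ← Finset.mul_sum] at h1
    have h2 : 0 ≤ qF P := qF_nonneg P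
    have h3 : c0 * qF P ≤ 0 := h1
    nlinarith [c0_pos]
  have hP0 : P = 0 := (qF_eq_zero_iff P).mp (le_antisymm hqF (qF_nonneg P))
  have hE : m⁻¹ • S0 = 1 := by
    rw [hP] at hP0
    exact (sub_eq_zero.mp hP0).symm
  have hUc : U c = 1 := by
    have h1 := ha ⟨c, Subgroup.mem_zpowers c⟩
    have h2 : U c * (m⁻¹ • S0) = m⁻¹ • S0 := by rw [Matrix.mul_smul, h1]
    rw [hE, Matrix.mul_one] at h2
    exact h2
  exact hfa c hUc

theorem comm_of {g b : G} (hg : g ∈ SS U) (hb : b ∈ SB U) : g * b = b * g := by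
  classical
  obtain ⟨r2, hr0, hr1, hr⟩ := qF_comm_le U hU hg
  have key : ∀ b : G, b ∈ SB U → g * b * g⁻¹ * b⁻¹ = 1 := by
    intro b
    haveI : IsTrans G (fun x y : G => qF (U x - 1) < qF (U y - 1)) :=
      ⟨fun _ _ _ h1 h2 => lt_trans h1 h2⟩
    haveI : IsIrrefl G (fun x y : G => qF (U x - 1) < qF (U y - 1)) :=
      ⟨fun _ h => lt_irrefl _ h⟩
    have wf : WellFounded (fun x y : G => qF (U x - 1) < qF (U y - 1)) :=
      Finite.wellFounded_of_trans_of_irrefl _
    induction b using wf.induction with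
    | _ b ih =>
      intro hb
      by_cases hb1 : b = 1
      · subst hb1; group
      have hc := SB_comm U hU hg hb
      have hlt : qF (U (g * b * g⁻¹ * b⁻¹) - 1) < qF (U b - 1) := by
        have h1 := hr b
        have h2 : 0 < qF (U b - 1) := by
          refine lt_of_le_of_ne (qF_nonneg _) (fun h => hb1 (hfa b ?_))
          exact sub_eq_zero.mp ((qF_eq_zero_iff _).mp h.symm)
        nlinarith
      have h3 := ih _ hlt hc
      have hcomm : g * (g * b * g⁻¹ * b⁻¹) = (g * b * g⁻¹ * b⁻¹) * g := by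
        generalize g * b * g⁻¹ * b⁻¹ = c at h3
        calc g * c = (g * c * g⁻¹ * c⁻¹) * c * g := by group
          _ = c * g := by rw [h3, one_mul]
      exact frob U hU hfa hb hcomm
  have h := key b hb
  calc g * b = (g * b * g⁻¹ * b⁻¹) * b * g := by group
    _ = b * g := by rw [h, one_mul]

omit hfa in
theorem closure_normal : (Subgroup.closure (SS U)).Normal := by
  constructor
  intro a ha x
  induction ha using Subgroup.closure_induction with
  | mem y hy => exact Subgroup.subset_closure (SS_conj U hU hy x)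
  | one => simp
  | mul y z _ _ hy hz =>
    have : x * (y * z) * x⁻¹ = (x * y * x⁻¹) * (x * z * x⁻¹) := by group
    rw [this]; exact mul_mem hy hz
  | inv y _ hy =>
    have : x * y⁻¹ * x⁻¹ = (x * y * x⁻¹)⁻¹ := by group
    rw [this]; exact inv_mem hy

theorem closure_comm : ∀ x ∈ Subgroup.closure (SS U), ∀ y ∈ Subgroup.closure (SS U),
    x * y = y * x := by
  have hS : ∀ x ∈ SS U, ∀ y ∈ SS U, x * y = y * x :=
    fun x hx y hy => comm_of U hU hfa hx (SS_sub_SB U hy)
  have h1 : SS U ⊆ Subgroup.centralizer (SS U) :=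
    fun y hy => Subgroup.mem_centralizer_iff.mpr (fun z hz => hS z hz y hy)
  have h2 : Subgroup.closure (SS U) ≤ Subgroup.centralizer (SS U) :=
    (Subgroup.closure_le _).mpr h1
  have h3 : SS U ⊆ Subgroup.centralizer (Subgroup.closure (SS U) : Set G) :=
    fun s hs => Subgroup.mem_centralizer_iff.mpr
      (fun a ha => (Subgroup.mem_centralizer_iff.mp (h2 ha) s hs).symm)
  have h4 : Subgroup.closure (SS U) ≤ Subgroup.centralizer (Subgroup.closure (SS U) : Set G) :=
    (Subgroup.closure_le _).mpr h3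
  intro x hx y hy
  exact Subgroup.mem_centralizer_iff.mp (h4 hy) x hx

end Cfsg.Agent.Lib.Helper23.Jordan
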