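import Mathlib
import Cfsg.Agent.Lib.Helper23.Jordan3

set_option autoImplicit false
set_option linter.unusedSectionVars false
set_option linter.unusedVariables false

namespace Cfsg.Agent.Lib.Helper23.Jordan

open Matrix

theorem exists_mulVec_ne {n : ℕ} (E : Matrix (Fin n) (Fin n) ℂ) (hE : E ≠ 0) :
    ∃ w : Fin n → ℂ, E *ᵥ w ≠ 0 := by
  by_contra hcon
  push Not at hcon
  apply hE
  ext i j
  have h := congrFun (hcon (Pi.single j 1)) i
  simpa using h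

theorem abel_key {A : Type*} [CommGroup A] [Finite A] {n : ℕ}
    (V : A →* Matrix (Fin n) (Fin n) ℂ) (hV : ∀ a, star (V a) * V a = 1) :
    ∃ Λ : Finset (A →* ℂˣ), Λ.card ≤ n ∧
      ∀ (a : A) (γ : ℝ), (∀ μ ∈ Λ, γ ≤ ((μ a : ℂˣ) : ℂ).re) →
        ∀ w, γ * q w ≤ rho (V a) w := by
  classical
  haveI : Fintype A := Fintype.ofFinite A
  haveI : NeZero ((Monoid.exponent A : ℕ) : ℂ) :=
    ⟨by exact_mod_cast Monoid.exponent_ne_zero_of_finite⟩
  haveI : Finite (A →* ℂˣ) :=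
    Finite.of_equiv A (CommGroup.monoidHom_mulEquiv_of_hasEnoughRootsOfUnity A ℂ).some.symm.toEquiv
  haveI : Fintype (A →* ℂˣ) := Fintype.ofFinite _
  set N : ℂ := (Fintype.card A : ℂ) with hN
  have hN0 : N ≠ 0 := by rw [hN]; exact_mod_cast Fintype.card_ne_zero
  have hcardD : (Fintype.card (A →* ℂˣ) : ℂ) = N := by
    rw [hN]
    have := CommGroup.card_monoidHom_of_hasEnoughRootsOfUnity A ℂ
    rw [Nat.card_eq_fintype_card, Nat.card_eq_fintype_card] at this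
    rw [this]
  have horth : ∀ a : A, ∑ μ : A →* ℂˣ, ((μ a : ℂˣ) : ℂ) = if a = 1 then N else 0 := by
    intro a
    split_ifs with ha
    · subst ha
      simp only [map_one, Units.val_one, Finset.sum_const, Finset.card_univ, nsmul_eq_mul,
        mul_one]
      exact hcardD
    · obtain ⟨ψ, hψ⟩ := CommGroup.exists_apply_ne_one_of_hasEnoughRootsOfUnity A ℂ ha
      have h1 : ∑ μ : A →* ℂˣ, ((μ a : ℂˣ) : ℂ)
          = ((ψ a : ℂˣ) : ℂ) * ∑ μ : A →* ℂˣ, ((μ a : ℂˣ) : ℂ) := by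
        rw [Finset.mul_sum]
        refine Fintype.sum_equiv (Equiv.mulLeft ψ⁻¹) _ _ (fun μ => ?_)
        simp only [Equiv.coe_mulLeft, MonoidHom.mul_apply, MonoidHom.inv_apply, Units.val_mul]
        rw [← mul_assoc, ← Units.val_mul, mul_inv_cancel, Units.val_one, one_mul]
      have h2 : (1 - ((ψ a : ℂˣ) : ℂ)) * ∑ μ : A →* ℂˣ, ((μ a : ℂˣ) : ℂ) = 0 := by
        rw [sub_mul, one_mul, ← h1, sub_self]
      rcases mul_eq_zero.mp h2 with h3 | h3
      · exfalso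
        apply hψ
        exact Units.ext (sub_eq_zero.mp h3).symm
      · exact h3
  obtain ⟨e, he⟩ : ∃ e : (A →* ℂˣ) → Matrix (Fin n) (Fin n) ℂ,
      ∀ μ, e μ = N⁻¹ • ∑ a : A, ((μ a⁻¹ : ℂˣ) : ℂ) • V a := ⟨_, fun μ => rfl⟩
  have hsum : ∑ μ, e μ = 1 := by
    rw [Finset.sum_congr rfl (fun μ _ => he μ)]
    rw [← Finset.smul_sum, Finset.sum_comm]
    have h1 : ∀ a : A, ∑ μ : A →* ℂˣ, ((μ a⁻¹ : ℂˣ) : ℂ) • V a
        = (if a = 1 then N else 0) • V a := by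
      intro a
      rw [← Finset.sum_smul, horth a⁻¹]
      simp only [inv_eq_one]
    rw [Finset.sum_congr rfl (fun a _ => h1 a), Finset.sum_eq_single (1 : A)]
    · rw [if_pos rfl, map_one, smul_smul, inv_mul_cancel₀ hN0, one_smul]
    · intro b _ hb
      rw [if_neg hb, zero_smul]
    · intro h; exact absurd (Finset.mem_univ _) h
  have heig : ∀ (μ : A →* ℂˣ) (k : A), V k * e μ = ((μ k : ℂˣ) : ℂ) • e μ := by
    intro μ k
    rw [he μ]
    rw [Matrix.mul_smul, smul_comm ((μ k : ℂˣ) : ℂ) N⁻¹]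
    congr 1
    rw [Finset.mul_sum, Finset.smul_sum]
    refine Fintype.sum_equiv (Equiv.mulLeft k) _ _ (fun a => ?_)
    simp only [Equiv.coe_mulLeft]
    rw [Matrix.mul_smul, ← map_mul, smul_smul]
    congr 1
    rw [_root_.mul_inv_rev, map_mul, Units.val_mul, mul_comm ((μ a⁻¹ : ℂˣ) : ℂ), ← mul_assoc,
      ← Units.val_mul, ← map_mul, mul_inv_cancel, map_one, Units.val_one, one_mul]
  have hunit : ∀ (μ : A →* ℂˣ) (k : A),
      (starRingEnd ℂ) ((μ k : ℂˣ) : ℂ) * ((μ k : ℂˣ) : ℂ) = 1 := by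
    intro μ k
    have h1 : ((μ k : ℂˣ) : ℂ) ^ Fintype.card A = 1 := by
      rw [← Units.val_pow_eq_pow_val, ← map_pow, pow_card_eq_one, map_one, Units.val_one]
    have h2 : ‖((μ k : ℂˣ) : ℂ)‖ = 1 :=
      Complex.norm_eq_one_of_pow_eq_one h1 Fintype.card_ne_zero
    rw [← Complex.normSq_eq_conj_mul_self, Complex.normSq_eq_norm_sq, h2]
    norm_num
  have hort : ∀ μ ν : A →* ℂˣ, μ ≠ ν → ∀ x y : Fin n → ℂ, ip (e μ *ᵥ x) (e ν *ᵥ y) = 0 := by
    intro μ ν hμν x y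
    obtain ⟨k, hk⟩ : ∃ k, μ k ≠ ν k := by
      by_contra hcon
      push Not at hcon
      exact hμν (MonoidHom.ext hcon)
    have h1 := ip_unitary (V k) (hV k) (e μ *ᵥ x) (e ν *ᵥ y)
    rw [Matrix.mulVec_mulVec, Matrix.mulVec_mulVec, heig μ k, heig ν k, Matrix.smul_mulVec,
      Matrix.smul_mulVec, ip_smul_left, ip_smul_right] at h1
    set I := ip (e μ *ᵥ x) (e ν *ᵥ y) with hI
    have h2 : ((starRingEnd ℂ) ((μ k : ℂˣ) : ℂ) * ((ν k : ℂˣ) : ℂ) - 1) * I = 0 := by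
      rw [sub_mul, one_mul, sub_eq_zero, mul_assoc]
      exact h1
    rcases mul_eq_zero.mp h2 with h3 | h3
    · exfalso
      apply hk
      apply Units.ext
      have h4 : (starRingEnd ℂ) ((μ k : ℂˣ) : ℂ) * ((ν k : ℂˣ) : ℂ) = 1 := sub_eq_zero.mp h3
      have h5 := hunit μ k
      calc ((μ k : ℂˣ) : ℂ) = ((μ k : ℂˣ) : ℂ)
            * ((starRingEnd ℂ) ((μ k : ℂˣ) : ℂ) * ((ν k : ℂˣ) : ℂ)) := by rw [h4, mul_one]
        _ = ((starRingEnd ℂ) ((μ k : ℂˣ) : ℂ) * ((μ k : ℂˣ) : ℂ)) * ((ν k : ℂˣ) : ℂ) := by ring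
        _ = ((ν k : ℂˣ) : ℂ) := by rw [h5, one_mul]
    · exact h3
  refine ⟨Finset.univ.filter (fun μ => e μ ≠ 0), ?_, ?_⟩
  · have hex : ∀ μ : A →* ℂˣ, ∃ w : Fin n → ℂ, e μ ≠ 0 → e μ *ᵥ w ≠ 0 := by
      intro μ
      by_cases h : e μ = 0
      · exact ⟨0, fun h' => absurd h h'⟩
      · obtain ⟨w, hw⟩ := exists_mulVec_ne (e μ) h
        exact ⟨w, fun _ => hw⟩
    choose wv hwv using hex
    set Λ := Finset.univ.filter (fun μ : A →* ℂˣ => e μ ≠ 0) with hΛ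
    have hli : LinearIndependent ℂ (fun μ : Λ => e (μ : A →* ℂˣ) *ᵥ wv μ) := by
      rw [linearIndependent_iff']
      intro s g hg ν hν
      have h1 : ip (e (ν : A →* ℂˣ) *ᵥ wv ν) (∑ μ ∈ s, g μ • (e (μ : A →* ℂˣ) *ᵥ wv μ)) = 0 := by
        rw [hg]
        unfold ip
        simp
      rw [ip_sum_right, Finset.sum_eq_single ν] at h1
      · rw [ip_smul_right, ip_self] at h1
        rcases mul_eq_zero.mp h1 with h2 | h2
        · exact h2
        · exfalso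
          have h3 : q (e (ν : A →* ℂˣ) *ᵥ wv ν) = 0 := by exact_mod_cast h2
          have h4 := (q_eq_zero_iff _).mp h3
          exact hwv _ (Finset.mem_filter.mp ν.2).2 h4
      · intro μ _ hμν
        rw [ip_smul_right, hort _ _ (fun h => hμν (Subtype.ext h.symm)), mul_zero]
      · intro h; exact absurd hν h
    have h5 := hli.fintype_card_le_finrank
    rw [Fintype.card_coe, Module.finrank_fin_fun] at h5
    exact h5
  · intro a γ hγ w
    have hw : w = ∑ μ, e μ *ᵥ w := by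
      rw [← Matrix.sum_mulVec, hsum, Matrix.one_mulVec]
    have hVw : V a *ᵥ w = ∑ μ : A →* ℂˣ, ((μ a : ℂˣ) : ℂ) • (e μ *ᵥ w) := by
      conv_lhs => rw [hw]
      rw [Matrix.mulVec_sum]
      refine Finset.sum_congr rfl (fun μ _ => ?_)
      rw [Matrix.mulVec_mulVec, heig μ a, Matrix.smul_mulVec]
    have hcross : ∀ ν μ : A →* ℂˣ, ip (e ν *ᵥ w) (e μ *ᵥ w)
        = if ν = μ then ((q (e μ *ᵥ w) : ℝ) : ℂ) else 0 := by
      intro ν μ
      split_ifs with h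
      · subst h; exact ip_self _
      · exact hort ν μ h w w
    have hwl : ∀ x : Fin n → ℂ, ip w x = ∑ ν : A →* ℂˣ, ip (e ν *ᵥ w) x := by
      intro x
      conv_lhs => rw [hw]
      exact ip_sum_left _ _ _
    have hdiag : ∀ μ : A →* ℂˣ, ip w (e μ *ᵥ w) = ((q (e μ *ᵥ w) : ℝ) : ℂ) := by
      intro μ
      rw [hwl, Finset.sum_congr rfl (fun ν _ => hcross ν μ), Finset.sum_ite_eq' Finset.univ μ,
        if_pos (Finset.mem_univ μ)]
    have hip : ip w (V a *ᵥ w) = ∑ μ : A →* ℂˣ, ((μ a : ℂˣ) : ℂ) * ((q (e μ *ᵥ w) : ℝ) : ℂ) := by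
      rw [hVw, ip_sum_right]
      refine Finset.sum_congr rfl (fun μ _ => ?_)
      rw [ip_smul_right, hdiag]
    have hq : q w = ∑ μ : A →* ℂˣ, q (e μ *ᵥ w) := by
      have h1 : ip w w = ∑ μ : A →* ℂˣ, ((q (e μ *ᵥ w) : ℝ) : ℂ) := by
        have h2 : ip w w = ip w (∑ μ, e μ *ᵥ w) := by rw [← hw]
        rw [h2, ip_sum_right]
        exact Finset.sum_congr rfl (fun μ _ => hdiag μ)
      rw [ip_self] at h1
      exact_mod_cast h1
    unfold rho
    rw [hip, hq, Complex.re_sum, Finset.mul_sum]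
    refine Finset.sum_le_sum (fun μ _ => ?_)
    rw [Complex.re_mul_ofReal]
    by_cases hμ : e μ = 0
    · rw [hμ, Matrix.zero_mulVec, q_zero, mul_zero, mul_zero]
    · exact mul_le_mul_of_nonneg_right
        (hγ μ (Finset.mem_filter.mpr ⟨Finset.mem_univ μ, hμ⟩)) (q_nonneg _)

end Cfsg.Agent.Lib.Helper23.Jordan
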