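import Mathlib

set_option autoImplicit false

namespace Cfsg.Agent.Lib.Helper23.Prim2

open Matrix

theorem prop3 (u₁ u₂ u₃ w₁ w₂ w₃ : ℂ) (hu : u₁ ≠ 0 ∨ u₂ ≠ 0 ∨ u₃ ≠ 0)
    (m12 : u₁ * w₂ = w₁ * u₂) (m13 : w₁ * u₃ = u₁ * w₃) (m23 : w₂ * u₃ = u₂ * w₃) :
    ∃ β : ℂ, w₁ = β * u₁ ∧ w₂ = β * u₂ ∧ w₃ = β * u₃ := by
  rcases hu with h | h | h
  · refine ⟨w₁ / u₁, (div_mul_cancel₀ w₁ h).symm, ?_, ?_⟩
    · rw [div_mul_eq_mul_div, eq_div_iff h]
      linear_combination m12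
    · rw [div_mul_eq_mul_div, eq_div_iff h]
      linear_combination -m13
  · refine ⟨w₂ / u₂, ?_, (div_mul_cancel₀ w₂ h).symm, ?_⟩
    · rw [div_mul_eq_mul_div, eq_div_iff h]
      linear_combination -m12
    · rw [div_mul_eq_mul_div, eq_div_iff h]
      linear_combination -m23
  · refine ⟨w₃ / u₃, ?_, ?_, (div_mul_cancel₀ w₃ h).symm⟩
    · rw [div_mul_eq_mul_div, eq_div_iff h]
      linear_combination m13
    · rw [div_mul_eq_mul_div, eq_div_iff h]
      linear_combination m23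

theorem mat2_ext (A B : Matrix (Fin 2) (Fin 2) ℂ) (h00 : A 0 0 = B 0 0) (h01 : A 0 1 = B 0 1)
    (h10 : A 1 0 = B 1 0) (h11 : A 1 1 = B 1 1) : A = B := by
  ext i j
  fin_cases i <;> fin_cases j <;> assumption

theorem comm_prop (X Y : Matrix (Fin 2) (Fin 2) ℂ)
    (hX : ∀ c : ℂ, X ≠ c • (1 : Matrix (Fin 2) (Fin 2) ℂ)) (h : X * Y = Y * X) :
    ∃ β : ℂ, Y 0 1 = β * X 0 1 ∧ Y 1 0 = β * X 1 0 ∧ Y 0 0 - Y 1 1 = β * (X 0 0 - X 1 1) := by
  have h00 := congrFun (congrFun h 0) 0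
  have h01 := congrFun (congrFun h 0) 1
  have h10 := congrFun (congrFun h 1) 0
  simp only [Matrix.mul_apply, Fin.sum_univ_two] at h00 h01 h10
  have hu : X 0 1 ≠ 0 ∨ X 1 0 ≠ 0 ∨ X 0 0 - X 1 1 ≠ 0 := by
    by_contra hcon
    push_neg at hcon
    obtain ⟨hb, hc, hd⟩ := hcon
    apply hX (X 0 0)
    apply mat2_ext
    · simp
    · simp [hb]
    · simp [hc]
    · simp
      linear_combination -hd
  exact prop3 _ _ _ _ _ _ hu (by linear_combination h00) (by linear_combination h01)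
    (by linear_combination -h10)

theorem comm_of_comm (X Y Y' : Matrix (Fin 2) (Fin 2) ℂ)
    (hX : ∀ c : ℂ, X ≠ c • (1 : Matrix (Fin 2) (Fin 2) ℂ))
    (h : X * Y = Y * X) (h' : X * Y' = Y' * X) : Y * Y' = Y' * Y := by
  obtain ⟨β, e1, e2, e3⟩ := comm_prop X Y hX h
  obtain ⟨β', e1', e2', e3'⟩ := comm_prop X Y' hX h'
  have f : Y 0 0 = Y 1 1 + β * (X 0 0 - X 1 1) := by linear_combination e3
  have f' : Y' 0 0 = Y' 1 1 + β' * (X 0 0 - X 1 1) := by linear_combination e3'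
  apply mat2_ext
  · simp only [Matrix.mul_apply, Fin.sum_univ_two]
    rw [e1, e2, e1', e2']
    ring
  · simp only [Matrix.mul_apply, Fin.sum_univ_two]
    rw [f, f', e1, e1']
    ring
  · simp only [Matrix.mul_apply, Fin.sum_univ_two]
    rw [f, f', e2, e2']
    ring
  · simp only [Matrix.mul_apply, Fin.sum_univ_two]
    rw [e1, e2, e1', e2']
    ring

theorem disc_ne (X : Matrix (Fin 2) (Fin 2) ℂ)
    (hX : ∀ c : ℂ, X ≠ c • (1 : Matrix (Fin 2) (Fin 2) ℂ))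
    (m : ℕ) (hm : 0 < m) (hXm : X ^ m = 1) :
    (X 0 0 - X 1 1) ^ 2 + 4 * X 0 1 * X 1 0 ≠ 0 := by
  intro hd
  obtain ⟨lam, hlam⟩ : ∃ lam : ℂ, lam = (X 0 0 + X 1 1) / 2 := ⟨_, rfl⟩
  obtain ⟨N, hN⟩ : ∃ N : Matrix (Fin 2) (Fin 2) ℂ, N = X - lam • (1 : Matrix (Fin 2) (Fin 2) ℂ) :=
    ⟨_, rfl⟩
  have n00 : N 0 0 = (X 0 0 - X 1 1) / 2 := by
    rw [hN, hlam]
    simp
    ring
  have n01 : N 0 1 = X 0 1 := by
    rw [hN]
    simp
  have n10 : N 1 0 = X 1 0 := by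
    rw [hN]
    simp
  have n11 : N 1 1 = (X 1 1 - X 0 0) / 2 := by
    rw [hN, hlam]
    simp
    ring
  have hNN : N * N = 0 := by
    apply mat2_ext
    · simp only [Matrix.mul_apply, Fin.sum_univ_two, n00, n01, n10, Matrix.zero_apply]
      linear_combination (1 / 4 : ℂ) * hd
    · simp only [Matrix.mul_apply, Fin.sum_univ_two, n00, n01, n11, Matrix.zero_apply]
      ring
    · simp only [Matrix.mul_apply, Fin.sum_univ_two, n00, n10, n11, Matrix.zero_apply]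
      ring
    · simp only [Matrix.mul_apply, Fin.sum_univ_two, n01, n10, n11, Matrix.zero_apply]
      linear_combination (1 / 4 : ℂ) * hd
  have hX' : X = lam • (1 : Matrix (Fin 2) (Fin 2) ℂ) + N := by
    rw [hN]
    abel
  have hpow : ∀ k : ℕ, X ^ (k + 1) = lam ^ (k + 1) • (1 : Matrix (Fin 2) (Fin 2) ℂ) +
      (((k + 1 : ℕ) : ℂ) * lam ^ k) • N := by
    intro k
    induction k with
    | zero =>
      simp
      exact hX'
    | succ k ih =>
      rw [pow_succ, ih]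
      nth_rewrite 1 [hX']
      simp only [add_mul, mul_add, Matrix.smul_mul, Matrix.mul_smul, Matrix.one_mul,
        Matrix.mul_one, hNN, smul_zero, add_zero, smul_smul]
      push_cast
      module
  obtain ⟨k, rfl⟩ : ∃ k, m = k + 1 := ⟨m - 1, by omega⟩
  have h1 := hpow k
  rw [hXm] at h1
  by_cases hc : (((k + 1 : ℕ) : ℂ) * lam ^ k) = 0
  · rw [hc, zero_smul, add_zero] at h1
    have hk1 : ((k + 1 : ℕ) : ℂ) ≠ 0 := by
      exact_mod_cast Nat.succ_ne_zero k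
    have hlk : lam ^ k = 0 := by
      rcases mul_eq_zero.mp hc with h | h
      · exact absurd h hk1
      · exact h
    have hl0 : lam = 0 := by
      by_contra hl
      exact pow_ne_zero k hl hlk
    rw [hl0, zero_pow (Nat.succ_ne_zero k), zero_smul] at h1
    have h2 := congrFun (congrFun h1 0) 0
    simp at h2
  · apply hX (lam + (1 - lam ^ (k + 1)) / (((k + 1 : ℕ) : ℂ) * lam ^ k))
    have h2 : (((k + 1 : ℕ) : ℂ) * lam ^ k) • N =
        (1 - lam ^ (k + 1)) • (1 : Matrix (Fin 2) (Fin 2) ℂ) := by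
      rw [sub_smul, one_smul]
      rw [eq_sub_iff_add_eq, add_comm]
      exact h1.symm
    have h3 : N = ((1 - lam ^ (k + 1)) / (((k + 1 : ℕ) : ℂ) * lam ^ k)) •
        (1 : Matrix (Fin 2) (Fin 2) ℂ) := by
      rw [div_eq_inv_mul, ← smul_smul, ← h2, smul_smul, inv_mul_cancel₀ hc, one_smul]
    rw [add_smul, ← h3]
    exact hX'

theorem conj_eq_or (X W : Matrix (Fin 2) (Fin 2) ℂ)
    (hX : ∀ c : ℂ, X ≠ c • (1 : Matrix (Fin 2) (Fin 2) ℂ))
    (hdisc : (X 0 0 - X 1 1) ^ 2 + 4 * X 0 1 * X 1 0 ≠ 0)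
    (hc : X * W = W * X) (htr : W.trace = X.trace) (hdet : W.det = X.det) :
    W = X ∨ W = X.trace • (1 : Matrix (Fin 2) (Fin 2) ℂ) - X := by
  obtain ⟨β, e1, e2, e3⟩ := comm_prop X W hX hc
  rw [Matrix.trace_fin_two, Matrix.trace_fin_two] at htr
  rw [Matrix.det_fin_two, Matrix.det_fin_two] at hdet
  have hQ : (W 0 0 - W 1 1) ^ 2 + 4 * W 0 1 * W 1 0 =
      (X 0 0 - X 1 1) ^ 2 + 4 * X 0 1 * X 1 0 := by
    linear_combination (W 0 0 + W 1 1 + X 0 0 + X 1 1) * htr - 4 * hdet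
  have hβ : (β ^ 2 - 1) * ((X 0 0 - X 1 1) ^ 2 + 4 * X 0 1 * X 1 0) = 0 := by
    rw [e1, e2, e3] at hQ
    linear_combination hQ
  have hβ2 : β ^ 2 = 1 := by
    rcases mul_eq_zero.mp hβ with h | h
    · linear_combination h
    · exact absurd h hdisc
  have hβ' : β = 1 ∨ β = -1 := by
    have h0 : (β - 1) * (β + 1) = 0 := by linear_combination hβ2
    rcases mul_eq_zero.mp h0 with h | h
    · left
      linear_combination h
    · right
      linear_combination h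
  rcases hβ' with rfl | rfl
  · left
    apply mat2_ext
    · linear_combination (1 / 2 : ℂ) * htr + (1 / 2 : ℂ) * e3
    · rw [e1, one_mul]
    · rw [e2, one_mul]
    · linear_combination (1 / 2 : ℂ) * htr - (1 / 2 : ℂ) * e3
  · right
    apply mat2_ext
    · simp [Matrix.trace_fin_two]
      linear_combination (1 / 2 : ℂ) * htr + (1 / 2 : ℂ) * e3
    · simp
      rw [e1]
      ring
    · simp
      rw [e2]
      ring
    · simp [Matrix.trace_fin_two]
      linear_combination (1 / 2 : ℂ) * htr - (1 / 2 : ℂ) * e3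

end Cfsg.Agent.Lib.Helper23.Prim2
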