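import Mathlib

set_option autoImplicit false

namespace Cfsg.Agent.Lib.Helper23.Prim2

def CD (N t : ℕ) : Prop :=
  ∃ a' n m : ℕ, (n = 1 ∨ n = 2) ∧ 2 ≤ m ∧ N = (a' + 2) * n * m ∧ t = m * (a' + 1)

theorem CD.cases {N t : ℕ} (h : CD N t) :
    ∃ a' m p : ℕ, 2 ≤ m ∧ p = m * a' ∧ t = p + m ∧ (N = p + 2 * m ∨ N = 2 * p + 4 * m) := by
  obtain ⟨a', n, m, hn, hm, hN, rfl⟩ := h
  refine ⟨a', m, m * a', hm, rfl, by ring, ?_⟩
  rcases hn with rfl | rfl
  · left
    rw [hN]
    ring
  · right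
    rw [hN]
    ring

theorem arith1 {N t : ℕ} (h : CD N t) (ht : t = N - 1) : False := by
  obtain ⟨a', m, p, hm, hp, rfl, hN | hN⟩ := h.cases <;> omega

theorem arith4 {N t₁ t₂ t₃ t₄ : ℕ} (h₁ : CD N t₁) (h₂ : CD N t₂) (h₃ : CD N t₃) (h₄ : CD N t₄)
    (ht : t₁ + t₂ + t₃ + t₄ ≤ N - 1) : False := by
  obtain ⟨a₁, m₁, p₁, hm₁, hp₁, rfl, hN₁ | hN₁⟩ := h₁.cases <;>
  obtain ⟨a₂, m₂, p₂, hm₂, hp₂, rfl, hN₂ | hN₂⟩ := h₂.cases <;>
  obtain ⟨a₃, m₃, p₃, hm₃, hp₃, rfl, hN₃ | hN₃⟩ := h₃.cases <;>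
  obtain ⟨a₄, m₄, p₄, hm₄, hp₄, rfl, hN₄ | hN₄⟩ := h₄.cases <;> omega

theorem arith2_aux {N a₁ m₁ p₁ a₂ m₂ p₂ : ℕ} (hm₁ : 2 ≤ m₁) (hp₁ : p₁ = m₁ * a₁)
    (hm₂ : 2 ≤ m₂) (hp₂ : p₂ = m₂ * a₂) (hN₁ : N = p₁ + 2 * m₁) (hN₂ : N = 2 * p₂ + 4 * m₂)
    (ht : p₁ + m₁ + (p₂ + m₂) = N - 1) : N = 12 := by
  have ha : a₁ ≤ 1 := by
    by_contra hc
    have h2 : m₁ * 2 ≤ m₁ * a₁ := Nat.mul_le_mul_left m₁ (by omega)
    omega
  interval_cases a₁
  · simp at hp₁
    omega
  · rw [mul_one] at hp₁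
    rcases Nat.eq_zero_or_pos a₂ with h0 | h0
    · rw [h0, mul_zero] at hp₂
      omega
    · have h2 : m₂ * 1 ≤ m₂ * a₂ := Nat.mul_le_mul_left m₂ h0
      omega

theorem arith2 {N t₁ t₂ : ℕ} (h₁ : CD N t₁) (h₂ : CD N t₂) (ht : t₁ + t₂ = N - 1) : N = 12 := by
  obtain ⟨a₁, m₁, p₁, hm₁, hp₁, rfl, hN₁ | hN₁⟩ := h₁.cases <;>
  obtain ⟨a₂, m₂, p₂, hm₂, hp₂, rfl, hN₂ | hN₂⟩ := h₂.cases
  · omega
  · exact arith2_aux hm₁ hp₁ hm₂ hp₂ hN₁ hN₂ ht
  · exact arith2_aux hm₂ hp₂ hm₁ hp₁ hN₂ hN₁ (by omega)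
  · omega

theorem arith3_aux2 {N m₁ a₂ m₂ p₂ a₃ m₃ p₃ : ℕ} (hm₁ : 2 ≤ m₁)
    (hm₂ : 2 ≤ m₂) (hp₂ : p₂ = m₂ * a₂) (hm₃ : 2 ≤ m₃) (hp₃ : p₃ = m₃ * a₃)
    (hN₁ : N = 4 * m₁) (hN₂ : N = 2 * p₂ + 4 * m₂) (hN₃ : N = 2 * p₃ + 4 * m₃)
    (ht : 2 * (m₁ + m₂ + m₃) = N + 2) (ha₂ : a₂ ≤ 1) : N = 12 ∨ N = 24 ∨ N = 60 := by
  interval_cases a₂
  · simp at hp₂
    omega
  · rw [mul_one] at hp₂
    have ha : a₃ ≤ 3 := by
      by_contra hc
      have h2 : m₃ * 4 ≤ m₃ * a₃ := Nat.mul_le_mul_left m₃ (by omega)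
      omega
    interval_cases a₃
    · simp at hp₃
      omega
    · rw [mul_one] at hp₃
      omega
    · omega
    · omega

theorem arith3_aux {N m₁ a₂ m₂ p₂ a₃ m₃ p₃ : ℕ} (hm₁ : 2 ≤ m₁)
    (hm₂ : 2 ≤ m₂) (hp₂ : p₂ = m₂ * a₂) (hm₃ : 2 ≤ m₃) (hp₃ : p₃ = m₃ * a₃)
    (hN₁ : N = 4 * m₁) (hN₂ : N = 2 * p₂ + 4 * m₂) (hN₃ : N = 2 * p₃ + 4 * m₃)
    (ht : 2 * (m₁ + m₂ + m₃) = N + 2) : N = 12 ∨ N = 24 ∨ N = 60 := by
  by_cases ha₂ : a₂ ≤ 1
  · exact arith3_aux2 hm₁ hm₂ hp₂ hm₃ hp₃ hN₁ hN₂ hN₃ ht ha₂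
  · by_cases ha₃ : a₃ ≤ 1
    · exact arith3_aux2 hm₁ hm₃ hp₃ hm₂ hp₂ hN₁ hN₃ hN₂ (by omega) ha₃
    · exfalso
      have h2 : m₂ * 2 ≤ m₂ * a₂ := Nat.mul_le_mul_left m₂ (by omega)
      have h3 : m₃ * 2 ≤ m₃ * a₃ := Nat.mul_le_mul_left m₃ (by omega)
      omega

theorem arith3 {N t₁ t₂ t₃ : ℕ} (h₁ : CD N t₁) (h₂ : CD N t₂) (h₃ : CD N t₃)
    (ht : t₁ + t₂ + t₃ = N - 1) : N = 12 ∨ N = 24 ∨ N = 60 := by
  obtain ⟨a₁, m₁, p₁, hm₁, hp₁, rfl, hN₁ | hN₁⟩ := h₁.cases <;>
  obtain ⟨a₂, m₂, p₂, hm₂, hp₂, rfl, hN₂ | hN₂⟩ := h₂.cases <;>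
  obtain ⟨a₃, m₃, p₃, hm₃, hp₃, rfl, hN₃ | hN₃⟩ := h₃.cases
  · omega
  · omega
  · omega
  · omega
  · omega
  · omega
  · omega
  · have hs : 2 * (m₁ + m₂ + m₃) = N + 2 := by omega
    rcases Nat.eq_zero_or_pos a₁ with h0 | h0
    · rw [h0, mul_zero] at hp₁
      exact arith3_aux hm₁ hm₂ hp₂ hm₃ hp₃ (by omega) hN₂ hN₃ hs
    · rcases Nat.eq_zero_or_pos a₂ with h0' | h0'
      · rw [h0', mul_zero] at hp₂
        exact arith3_aux hm₂ hm₁ hp₁ hm₃ hp₃ (by omega) hN₁ hN₃ (by omega)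
      · rcases Nat.eq_zero_or_pos a₃ with h0'' | h0''
        · rw [h0'', mul_zero] at hp₃
          exact arith3_aux hm₃ hm₁ hp₁ hm₂ hp₂ (by omega) hN₁ hN₂ (by omega)
        · exfalso
          have h1 : m₁ * 1 ≤ m₁ * a₁ := Nat.mul_le_mul_left m₁ h0
          have h2 : m₂ * 1 ≤ m₂ * a₂ := Nat.mul_le_mul_left m₂ h0'
          have h3 : m₃ * 1 ≤ m₃ * a₃ := Nat.mul_le_mul_left m₃ h0''
          omega

section grp

variable {G : Type*} [Group G] [Fintype G]

open Classical in
noncomputable def U (g : G) : Finset G :=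
  Finset.univ.filter (fun h => h ∉ Subgroup.center G ∧
    ∃ x : G, (x⁻¹ * h * x) * g = g * (x⁻¹ * h * x))

theorem mem_U {g h : G} : h ∈ U g ↔ h ∉ Subgroup.center G ∧
    ∃ x : G, (x⁻¹ * h * x) * g = g * (x⁻¹ * h * x) := by
  classical
  unfold U
  rw [Finset.mem_filter]
  simp

theorem center_conj (h x : G) : x⁻¹ * h * x ∈ Subgroup.center G ↔ h ∈ Subgroup.center G := by
  constructor
  · intro hc
    have h1 := (inferInstance : (Subgroup.center G).Normal).conj_mem _ hc x
    have e : x * (x⁻¹ * h * x) * x⁻¹ = h := by group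
    rwa [e] at h1
  · intro hc
    have h1 := (inferInstance : (Subgroup.center G).Normal).conj_mem _ hc x⁻¹
    rwa [inv_inv] at h1

theorem memA {g k : G} : k ∈ Subgroup.centralizer ({g} : Set G) ↔ k * g = g * k := by
  rw [Subgroup.mem_centralizer_iff]
  constructor
  · intro h
    exact (h g rfl).symm
  · intro h x hx
    rw [Set.mem_singleton_iff] at hx
    rw [hx]
    exact h.symm

theorem comm_iff
    (hCA : ∀ g : G, g ∉ Subgroup.center G → ∀ a b : G, a * g = g * a → b * g = g * b →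
      a * b = b * a)
    {g h : G} (hg : g ∉ Subgroup.center G) (hh : h ∉ Subgroup.center G) (hgh : h * g = g * h)
    (k : G) : k * h = h * k ↔ k * g = g * k :=
  ⟨fun hk => hCA h hh k g hk hgh.symm, fun hk => hCA g hg k h hk hgh⟩

theorem conj_comm {a b : G} (x : G) :
    (x * a * x⁻¹) * (x * b * x⁻¹) = (x * b * x⁻¹) * (x * a * x⁻¹) ↔ a * b = b * a :=
  Commute.conj_iff x

theorem conj_comm' {a b : G} (x : G) :
    (x⁻¹ * a * x) * (x⁻¹ * b * x) = (x⁻¹ * b * x) * (x⁻¹ * a * x) ↔ a * b = b * a := by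
  have h := conj_comm (a := a) (b := b) x⁻¹
  rwa [inv_inv] at h

theorem U_eq
    (hCA : ∀ g : G, g ∉ Subgroup.center G → ∀ a b : G, a * g = g * a → b * g = g * b →
      a * b = b * a)
    {g h : G} (hg : g ∉ Subgroup.center G) (hh : h ∈ U g) : U h = U g := by
  obtain ⟨hhZ, x, hx⟩ := mem_U.mp hh
  have hh'Z : x⁻¹ * h * x ∉ Subgroup.center G := fun hc => hhZ ((center_conj h x).mp hc)
  ext k
  rw [mem_U, mem_U]
  constructor
  · rintro ⟨hk, y, hy⟩
    refine ⟨hk, y * x, ?_⟩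
    have h1 : (x⁻¹ * (y⁻¹ * k * y) * x) * (x⁻¹ * h * x) =
        (x⁻¹ * h * x) * (x⁻¹ * (y⁻¹ * k * y) * x) := (conj_comm' x).mpr hy
    have h2 := (comm_iff hCA hg hh'Z hx _).mp h1
    have e : (y * x)⁻¹ * k * (y * x) = x⁻¹ * (y⁻¹ * k * y) * x := by group
    rw [e]
    exact h2
  · rintro ⟨hk, w, hw⟩
    refine ⟨hk, w * x⁻¹, ?_⟩
    have h1 := (comm_iff hCA hg hh'Z hx _).mpr hw
    have h3 := (conj_comm x).mpr h1
    have e1 : (w * x⁻¹)⁻¹ * k * (w * x⁻¹) = x * (w⁻¹ * k * w) * x⁻¹ := by group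
    have e2 : x * (x⁻¹ * h * x) * x⁻¹ = h := by group
    rw [e2] at h3
    rw [e1]
    exact h3

theorem card_sub (S : Subgroup G) [DecidablePred (· ∈ S)] :
    Nat.card S = (Finset.univ.filter (fun k : G => k ∈ S)).card := by
  rw [Nat.card_eq_fintype_card, Fintype.card_subtype]

theorem count
    (hCA : ∀ g : G, g ∉ Subgroup.center G → ∀ a b : G, a * g = g * a → b * g = g * b →
      a * b = b * a)
    {g : G} (hg : g ∉ Subgroup.center G) :
    (U g).card * Nat.card (Subgroup.normalizer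
        ((Subgroup.centralizer ({g} : Set G) : Subgroup G) : Set G)) =
      Nat.card G * (Nat.card (Subgroup.centralizer ({g} : Set G)) -
        Nat.card (Subgroup.center G)) := by
  classical
  have way1 : ∀ x : G, (Finset.univ.filter (fun h : G => h ∉ Subgroup.center G ∧
      (x⁻¹ * h * x) * g = g * (x⁻¹ * h * x))).card =
      Nat.card (Subgroup.centralizer ({g} : Set G)) - Nat.card (Subgroup.center G) := by
    intro x
    have e1 : (Finset.univ.filter (fun h : G => h ∉ Subgroup.center G ∧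
        (x⁻¹ * h * x) * g = g * (x⁻¹ * h * x))).card =
        (Finset.univ.filter (fun k : G => k ∉ Subgroup.center G ∧ k * g = g * k)).card := by
      apply Finset.card_nbij' (fun h => x⁻¹ * h * x) (fun k => x * k * x⁻¹)
      · intro h hh
        simp only [Finset.mem_coe, Finset.mem_filter, Finset.mem_univ, true_and] at hh ⊢
        exact ⟨fun hc => hh.1 ((center_conj h x).mp hc), hh.2⟩
      · intro k hk
        simp only [Finset.mem_coe, Finset.mem_filter, Finset.mem_univ, true_and] at hk ⊢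
        have e : x⁻¹ * (x * k * x⁻¹) * x = k := by group
        refine ⟨fun hc => hk.1 ?_, ?_⟩
        · have h1 := (center_conj (x * k * x⁻¹) x).mpr hc
          rwa [e] at h1
        · rw [e]
          exact hk.2
      · intro h _
        group
      · intro k _
        group
    rw [e1]
    have e2 := Finset.card_filter_add_card_filter_not
      (s := Finset.univ.filter (fun k : G => k ∈ Subgroup.centralizer ({g} : Set G)))
      (fun k : G => k ∈ Subgroup.center G)
    rw [Finset.filter_filter, Finset.filter_filter] at e2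
    have e3 : Finset.univ.filter (fun k : G => k ∈ Subgroup.centralizer ({g} : Set G) ∧
        k ∈ Subgroup.center G) = Finset.univ.filter (fun k : G => k ∈ Subgroup.center G) := by
      ext k
      simp only [Finset.mem_filter, Finset.mem_univ, true_and]
      constructor
      · exact fun h => h.2
      · intro h
        exact ⟨memA.mpr (Subgroup.mem_center_iff.mp h g).symm, h⟩
    have e4 : Finset.univ.filter (fun k : G => k ∈ Subgroup.centralizer ({g} : Set G) ∧
        ¬ k ∈ Subgroup.center G) =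
        Finset.univ.filter (fun k : G => k ∉ Subgroup.center G ∧ k * g = g * k) := by
      ext k
      simp only [Finset.mem_filter, Finset.mem_univ, true_and, memA]
      tauto
    rw [e3, e4, ← card_sub, ← card_sub] at e2
    omega
  have way2 : ∀ h : G, (Finset.univ.filter (fun x : G => h ∉ Subgroup.center G ∧
      (x⁻¹ * h * x) * g = g * (x⁻¹ * h * x))).card =
      if h ∈ U g then Nat.card (Subgroup.normalizer
        ((Subgroup.centralizer ({g} : Set G) : Subgroup G) : Set G)) else 0 := by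
    intro h
    by_cases hU : h ∈ U g
    · rw [if_pos hU]
      obtain ⟨hhZ, x₀, hx₀⟩ := mem_U.mp hU
      rw [card_sub]
      have hh₀Z : x₀⁻¹ * h * x₀ ∉ Subgroup.center G :=
        fun hc => hhZ ((center_conj h x₀).mp hc)
      apply Finset.card_nbij' (fun x => x₀⁻¹ * x) (fun y => x₀ * y)
      · intro x hx
        simp only [Finset.mem_coe, Finset.mem_filter, Finset.mem_univ, true_and] at hx ⊢
        rw [Subgroup.mem_normalizer_iff]
        intro k
        rw [memA, memA]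
        have hh₁Z : x⁻¹ * h * x ∉ Subgroup.center G :=
          fun hc => hhZ ((center_conj h x).mp hc)
        rw [← comm_iff hCA hg hh₁Z hx.2 k,
          ← comm_iff hCA hg hh₀Z hx₀ (x₀⁻¹ * x * k * (x₀⁻¹ * x)⁻¹)]
        have e : x₀⁻¹ * h * x₀ = (x₀⁻¹ * x) * (x⁻¹ * h * x) * (x₀⁻¹ * x)⁻¹ := by group
        rw [e]
        exact (conj_comm (x₀⁻¹ * x)).symm
      · intro y hy
        simp only [Finset.mem_coe, Finset.mem_filter, Finset.mem_univ, true_and] at hy ⊢
        refine ⟨hhZ, ?_⟩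
        have hy' := inv_mem hy
        rw [Subgroup.mem_normalizer_iff] at hy'
        have h1 := (hy' (x₀⁻¹ * h * x₀)).mp (memA.mpr hx₀)
        rw [memA] at h1
        have e : (x₀ * y)⁻¹ * h * (x₀ * y) = y⁻¹ * (x₀⁻¹ * h * x₀) * y⁻¹⁻¹ := by group
        rw [e]
        exact h1
      · intro x _
        exact mul_inv_cancel_left x₀ x
      · intro y _
        exact inv_mul_cancel_left x₀ y
    · rw [if_neg hU, Finset.card_eq_zero, Finset.filter_eq_empty_iff]
      intro x _ hx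
      exact hU (mem_U.mpr ⟨hx.1, x, hx.2⟩)
  have hsum : ∑ x : G, (Finset.univ.filter (fun h : G => h ∉ Subgroup.center G ∧
      (x⁻¹ * h * x) * g = g * (x⁻¹ * h * x))).card =
      ∑ h : G, (Finset.univ.filter (fun x : G => h ∉ Subgroup.center G ∧
        (x⁻¹ * h * x) * g = g * (x⁻¹ * h * x))).card := by
    simp_rw [Finset.card_filter]
    exact Finset.sum_comm
  rw [Finset.sum_congr rfl (fun x _ => way1 x), Finset.sum_congr rfl (fun h _ => way2 h),
    Finset.sum_const, Finset.card_univ, smul_eq_mul, ← Nat.card_eq_fintype_card,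
    Finset.sum_ite_mem, Finset.univ_inter, Finset.sum_const, smul_eq_mul] at hsum
  exact hsum.symm

theorem classData
    (hCA : ∀ g : G, g ∉ Subgroup.center G → ∀ a b : G, a * g = g * a → b * g = g * b →
      a * b = b * a)
    (hN2 : ∀ g : G, g ∉ Subgroup.center G → ∀ x y : G,
      (x * g * x⁻¹) * g = g * (x * g * x⁻¹) → (y * g * y⁻¹) * g = g * (y * g * y⁻¹) →
      x * g ≠ g * x → y * g ≠ g * y → (x⁻¹ * y) * g = g * (x⁻¹ * y))
    (hnab : ∀ A : Subgroup G, A.Normal → (∀ a ∈ A, ∀ b ∈ A, a * b = b * a) →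
      A ≤ Subgroup.center G)
    {g : G} (hg : g ∉ Subgroup.center G) :
    ∃ t, CD (Subgroup.center G).index t ∧ (U g).card = Nat.card (Subgroup.center G) * t := by
  classical
  have hcount := count hCA hg
  have hZA : Subgroup.center G ≤ Subgroup.centralizer ({g} : Set G) := by
    intro k hk
    exact memA.mpr (Subgroup.mem_center_iff.mp hk g).symm
  have hAN : Subgroup.centralizer ({g} : Set G) ≤ Subgroup.normalizer
      ((Subgroup.centralizer ({g} : Set G) : Subgroup G) : Set G) := Subgroup.le_normalizer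
  have hgA : g ∈ Subgroup.centralizer ({g} : Set G) := memA.mpr rfl
  have hAab : ∀ a ∈ Subgroup.centralizer ({g} : Set G),
      ∀ b ∈ Subgroup.centralizer ({g} : Set G), a * b = b * a :=
    fun a ha b hb => hCA g hg a b (memA.mp ha) (memA.mp hb)
  obtain ⟨a, ha⟩ := Subgroup.card_dvd_of_le hZA
  obtain ⟨n, hn⟩ := Subgroup.card_dvd_of_le hAN
  obtain ⟨m, hm⟩ := Subgroup.card_subgroup_dvd_card (Subgroup.normalizer
      ((Subgroup.centralizer ({g} : Set G) : Subgroup G) : Set G))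
  have hz : 0 < Nat.card (Subgroup.center G) := Nat.card_pos
  have hcA : 0 < Nat.card (Subgroup.centralizer ({g} : Set G)) := Nat.card_pos
  have hnA : 0 < Nat.card (Subgroup.normalizer
      ((Subgroup.centralizer ({g} : Set G) : Subgroup G) : Set G)) := Nat.card_pos
  have hG : 0 < Nat.card G := Nat.card_pos
  have ha2 : 2 ≤ a := by
    have h0 : a ≠ 0 := by
      rintro rfl
      rw [mul_zero] at ha
      omega
    have h1 : a ≠ 1 := by
      rintro rfl
      rw [mul_one] at ha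
      have h2 := Subgroup.eq_of_le_of_card_ge hZA (le_of_eq ha)
      exact hg (h2 ▸ hgA)
    omega
  have hn12 : n = 1 ∨ n = 2 := by
    have h0 : n ≠ 0 := by
      rintro rfl
      rw [mul_zero] at hn
      omega
    have hle : Nat.card (Subgroup.normalizer
        ((Subgroup.centralizer ({g} : Set G) : Subgroup G) : Set G)) ≤
        2 * Nat.card (Subgroup.centralizer ({g} : Set G)) := by
      by_cases hNA : Subgroup.normalizer
          ((Subgroup.centralizer ({g} : Set G) : Subgroup G) : Set G) =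
          Subgroup.centralizer ({g} : Set G)
      · rw [hNA]
        omega
      · obtain ⟨x, hxN, hxA⟩ := SetLike.exists_of_lt (lt_of_le_of_ne hAN (Ne.symm hNA))
        have e2 := Finset.card_filter_add_card_filter_not
          (s := Finset.univ.filter (fun k : G => k ∈ Subgroup.normalizer
            ((Subgroup.centralizer ({g} : Set G) : Subgroup G) : Set G)))
          (fun k : G => k ∈ Subgroup.centralizer ({g} : Set G))
        rw [Finset.filter_filter, Finset.filter_filter] at e2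
        have e3 : Finset.univ.filter (fun k : G => k ∈ Subgroup.normalizer
            ((Subgroup.centralizer ({g} : Set G) : Subgroup G) : Set G) ∧
            k ∈ Subgroup.centralizer ({g} : Set G)) =
            Finset.univ.filter (fun k : G => k ∈ Subgroup.centralizer ({g} : Set G)) := by
          ext k
          simp only [Finset.mem_filter, Finset.mem_univ, true_and]
          exact ⟨fun h => h.2, fun h => ⟨hAN h, h⟩⟩
        have e5 : (Finset.univ.filter (fun k : G => k ∈ Subgroup.normalizer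
            ((Subgroup.centralizer ({g} : Set G) : Subgroup G) : Set G) ∧
            ¬ k ∈ Subgroup.centralizer ({g} : Set G))).card ≤
            (Finset.univ.filter (fun k : G => k ∈ Subgroup.centralizer ({g} : Set G))).card := by
          apply Finset.card_le_card_of_injOn (fun y => x⁻¹ * y)
          · intro y hy
            simp only [Finset.mem_coe, Finset.mem_filter, Finset.mem_univ, true_and] at hy ⊢
            rw [memA]
            apply hN2 g hg x y
            · exact memA.mp ((Subgroup.mem_normalizer_iff.mp hxN g).mp hgA)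
            · exact memA.mp ((Subgroup.mem_normalizer_iff.mp hy.1 g).mp hgA)
            · exact fun h => hxA (memA.mpr h)
            · exact fun h => hy.2 (memA.mpr h)
          · intro y₁ _ y₂ _ h
            exact mul_left_cancel h
        rw [e3, ← card_sub, ← card_sub] at e2
        rw [← card_sub] at e5
        omega
    have hn3 : n ≤ 2 := by
      by_contra hc
      have h3 : Nat.card (Subgroup.centralizer ({g} : Set G)) * 3 ≤
          Nat.card (Subgroup.centralizer ({g} : Set G)) * n := Nat.mul_le_mul_left _ (by omega)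
      omega
    omega
  have hm2 : 2 ≤ m := by
    have h0 : m ≠ 0 := by
      rintro rfl
      rw [mul_zero] at hm
      omega
    have h1 : m ≠ 1 := by
      rintro rfl
      rw [mul_one] at hm
      have htop := Subgroup.eq_top_of_card_eq _ hm.symm
      have hnorm := Subgroup.normalizer_eq_top_iff.mp htop
      exact hg (hnab _ hnorm hAab hgA)
    omega
  have hidx := Subgroup.card_mul_index (Subgroup.center G)
  have hN : (Subgroup.center G).index = a * n * m := by
    have h1 : Nat.card (Subgroup.center G) * (Subgroup.center G).index =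
        Nat.card (Subgroup.center G) * (a * n * m) := by
      rw [hidx, hm, hn, ha]
      ring
    exact Nat.eq_of_mul_eq_mul_left hz h1
  refine ⟨m * (a - 1), ⟨a - 2, n, m, hn12, hm2, ?_, ?_⟩, ?_⟩
  · rw [hN]
    congr 2
    omega
  · congr 1
    omega
  · have e : Nat.card G * (Nat.card (Subgroup.centralizer ({g} : Set G)) -
        Nat.card (Subgroup.center G)) = Nat.card (Subgroup.normalizer
        ((Subgroup.centralizer ({g} : Set G) : Subgroup G) : Set G)) *
        (Nat.card (Subgroup.center G) * (m * (a - 1))) := by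
      rw [hm, ha]
      have h1 : Nat.card (Subgroup.center G) * a - Nat.card (Subgroup.center G) =
          Nat.card (Subgroup.center G) * (a - 1) := by
        rw [Nat.mul_sub, mul_one]
      rw [h1]
      ring
    rw [e, mul_comm] at hcount
    exact Nat.eq_of_mul_eq_mul_left hnA hcount

theorem ca_count
    (hCA : ∀ g : G, g ∉ Subgroup.center G → ∀ a b : G, a * g = g * a → b * g = g * b →
      a * b = b * a)
    (hN2 : ∀ g : G, g ∉ Subgroup.center G → ∀ x y : G,
      (x * g * x⁻¹) * g = g * (x * g * x⁻¹) → (y * g * y⁻¹) * g = g * (y * g * y⁻¹) →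
      x * g ≠ g * x → y * g ≠ g * y → (x⁻¹ * y) * g = g * (x⁻¹ * y))
    (hnab : ∀ A : Subgroup G, A.Normal → (∀ a ∈ A, ∀ b ∈ A, a * b = b * a) →
      A ≤ Subgroup.center G)
    (hne : ∃ g : G, g ∉ Subgroup.center G) :
    (Subgroup.center G).index = 12 ∨ (Subgroup.center G).index = 24 ∨
      (Subgroup.center G).index = 60 := by
  classical
  have hzpos : 0 < Nat.card (Subgroup.center G) := Nat.card_pos
  have hR : (Finset.univ.filter (fun h : G => h ∉ Subgroup.center G)).card +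
      Nat.card (Subgroup.center G) =
      Nat.card (Subgroup.center G) * (Subgroup.center G).index := by
    have e := Finset.card_filter_add_card_filter_not (s := (Finset.univ : Finset G))
      (fun k : G => k ∈ Subgroup.center G)
    rw [Finset.card_univ, ← Nat.card_eq_fintype_card,
      ← Subgroup.card_mul_index (Subgroup.center G), ← card_sub] at e
    omega
  have hUR : ∀ g : G, U g ⊆ Finset.univ.filter (fun h : G => h ∉ Subgroup.center G) := by
    intro g h hh
    exact Finset.mem_filter.mpr ⟨Finset.mem_univ _, (mem_U.mp hh).1⟩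
  have hself : ∀ g : G, g ∉ Subgroup.center G → g ∈ U g := by
    intro g hg
    exact mem_U.mpr ⟨hg, 1, by simp⟩
  have hdisj : ∀ g₁ g₂ : G, g₁ ∉ Subgroup.center G → g₂ ∉ Subgroup.center G → g₂ ∉ U g₁ →
      Disjoint (U g₁) (U g₂) := by
    intro g₁ g₂ h1 h2 h12
    rw [Finset.disjoint_left]
    intro h hh1 hh2
    have e1 := U_eq hCA h1 hh1
    have e2 := U_eq hCA h2 hh2
    apply h12
    rw [← e1, e2]
    exact hself g₂ h2
  have hnext : ∀ S : Finset G, S ⊆ Finset.univ.filter (fun h : G => h ∉ Subgroup.center G) →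
      S ≠ Finset.univ.filter (fun h : G => h ∉ Subgroup.center G) →
      ∃ g, g ∉ Subgroup.center G ∧ g ∉ S := by
    intro S hS hne'
    by_contra hcon
    push_neg at hcon
    apply hne'
    apply Finset.Subset.antisymm hS
    intro g hg
    exact hcon g (Finset.mem_filter.mp hg).2
  have hcancel : ∀ t : ℕ, Nat.card (Subgroup.center G) * t + Nat.card (Subgroup.center G) =
      Nat.card (Subgroup.center G) * (Subgroup.center G).index →
      t = (Subgroup.center G).index - 1 := by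
    intro t h
    have h1 : Nat.card (Subgroup.center G) * (t + 1) =
        Nat.card (Subgroup.center G) * (Subgroup.center G).index := by
      rw [← h]
      ring
    have h2 := Nat.eq_of_mul_eq_mul_left hzpos h1
    omega
  obtain ⟨g₁, hg₁⟩ := hne
  obtain ⟨t₁, hcd₁, hc₁⟩ := classData hCA hN2 hnab hg₁
  by_cases h1 : U g₁ = Finset.univ.filter (fun h : G => h ∉ Subgroup.center G)
  · exfalso
    apply arith1 hcd₁
    apply hcancel
    rw [← hc₁, h1]
    exact hR
  obtain ⟨g₂, hg₂, hg₂U⟩ := hnext (U g₁) (hUR g₁) h1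
  obtain ⟨t₂, hcd₂, hc₂⟩ := classData hCA hN2 hnab hg₂
  have d12 := hdisj g₁ g₂ hg₁ hg₂ hg₂U
  by_cases h2 : U g₁ ∪ U g₂ = Finset.univ.filter (fun h : G => h ∉ Subgroup.center G)
  · left
    apply arith2 hcd₁ hcd₂
    apply hcancel
    rw [mul_add, ← hc₁, ← hc₂, ← Finset.card_union_of_disjoint d12, h2]
    exact hR
  obtain ⟨g₃, hg₃, hg₃U⟩ := hnext (U g₁ ∪ U g₂) (Finset.union_subset (hUR g₁) (hUR g₂)) h2
  obtain ⟨t₃, hcd₃, hc₃⟩ := classData hCA hN2 hnab hg₃
  have hg₃1 : g₃ ∉ U g₁ := fun h => hg₃U (Finset.mem_union_left _ h)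
  have hg₃2 : g₃ ∉ U g₂ := fun h => hg₃U (Finset.mem_union_right _ h)
  have d123 : Disjoint (U g₁ ∪ U g₂) (U g₃) :=
    Finset.disjoint_union_left.mpr ⟨hdisj g₁ g₃ hg₁ hg₃ hg₃1, hdisj g₂ g₃ hg₂ hg₃ hg₃2⟩
  by_cases h3 : U g₁ ∪ U g₂ ∪ U g₃ = Finset.univ.filter (fun h : G => h ∉ Subgroup.center G)
  · apply arith3 hcd₁ hcd₂ hcd₃
    apply hcancel
    rw [mul_add, mul_add, ← hc₁, ← hc₂, ← hc₃, ← Finset.card_union_of_disjoint d12,
      ← Finset.card_union_of_disjoint d123, h3]
    exact hR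
  exfalso
  obtain ⟨g₄, hg₄, hg₄U⟩ := hnext (U g₁ ∪ U g₂ ∪ U g₃)
    (Finset.union_subset (Finset.union_subset (hUR g₁) (hUR g₂)) (hUR g₃)) h3
  obtain ⟨t₄, hcd₄, hc₄⟩ := classData hCA hN2 hnab hg₄
  have hg₄1 : g₄ ∉ U g₁ :=
    fun h => hg₄U (Finset.mem_union_left _ (Finset.mem_union_left _ h))
  have hg₄2 : g₄ ∉ U g₂ :=
    fun h => hg₄U (Finset.mem_union_left _ (Finset.mem_union_right _ h))
  have hg₄3 : g₄ ∉ U g₃ := fun h => hg₄U (Finset.mem_union_right _ h)
  have d1234 : Disjoint (U g₁ ∪ U g₂ ∪ U g₃) (U g₄) :=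
    Finset.disjoint_union_left.mpr ⟨Finset.disjoint_union_left.mpr
      ⟨hdisj g₁ g₄ hg₁ hg₄ hg₄1, hdisj g₂ g₄ hg₂ hg₄ hg₄2⟩, hdisj g₃ g₄ hg₃ hg₄ hg₄3⟩
  have hsub : U g₁ ∪ U g₂ ∪ U g₃ ∪ U g₄ ⊆
      Finset.univ.filter (fun h : G => h ∉ Subgroup.center G) :=
    Finset.union_subset (Finset.union_subset (Finset.union_subset (hUR g₁) (hUR g₂)) (hUR g₃))
      (hUR g₄)
  have hle := Finset.card_le_card hsub
  rw [Finset.card_union_of_disjoint d1234, Finset.card_union_of_disjoint d123,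
    Finset.card_union_of_disjoint d12, hc₁, hc₂, hc₃, hc₄] at hle
  apply arith4 hcd₁ hcd₂ hcd₃ hcd₄
  have h5 : Nat.card (Subgroup.center G) * (t₁ + t₂ + t₃ + t₄ + 1) ≤
      Nat.card (Subgroup.center G) * (Subgroup.center G).index := by
    calc Nat.card (Subgroup.center G) * (t₁ + t₂ + t₃ + t₄ + 1)
        = Nat.card (Subgroup.center G) * t₁ + Nat.card (Subgroup.center G) * t₂ +
          Nat.card (Subgroup.center G) * t₃ + Nat.card (Subgroup.center G) * t₄ +
          Nat.card (Subgroup.center G) := by ring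
      _ ≤ (Finset.univ.filter (fun h : G => h ∉ Subgroup.center G)).card +
          Nat.card (Subgroup.center G) := by omega
      _ = _ := hR
  have h6 := Nat.le_of_mul_le_mul_left h5 hzpos
  omega

end grp

end Cfsg.Agent.Lib.Helper23.Prim2
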