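import Mathlib
import Cfsg.Agent.Lib.Helper10.GalConj
import Cfsg.Agent.Lib.Helper24.CharBasic
import Cfsg.Agent.Lib.Helper1.CharReg

set_option autoImplicit false

namespace Cfsg.Agent.Lib.Helper23.Schur

open Cfsg

theorem geom_root (q : ℕ) (w : ℂ) (hw : w ^ q = 1) :
    ∑ j ∈ Finset.range q, w ^ j = if w = 1 then (q : ℂ) else 0 := by
  split_ifs with h
  · subst h; simp
  · have h1 : (w - 1) * ∑ j ∈ Finset.range q, w ^ j = 0 := by
      rw [mul_geom_sum, hw, sub_self]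
    rcases mul_eq_zero.mp h1 with h2 | h2
    · exact absurd (sub_eq_zero.mp h2) h
    · exact h2

theorem fourier (q : ℕ) (hq : 0 < q) (s : Finset ℂ) (c e : ℂ → ℂ)
    (he : ∀ μ ∈ s, e μ ^ q = 1) (ν : ℂ) (hν : ν ^ q = 1) :
    ∑ j ∈ Finset.range q, (∑ μ ∈ s, c μ * e μ ^ j) * (ν⁻¹) ^ j
      = (q : ℂ) * ∑ μ ∈ s.filter (fun μ => e μ = ν), c μ := by
  classical
  have hν0 : ν ≠ 0 := by
    rintro rfl
    rw [zero_pow hq.ne'] at hν
    exact zero_ne_one hν
  simp_rw [Finset.sum_mul]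
  rw [Finset.sum_comm, Finset.mul_sum, Finset.sum_filter]
  refine Finset.sum_congr rfl (fun μ hμ => ?_)
  have h1 : ∀ j, c μ * e μ ^ j * ν⁻¹ ^ j = c μ * (e μ * ν⁻¹) ^ j := fun j => by
    rw [mul_pow]; ring
  simp_rw [h1]
  have h3 : (e μ * ν⁻¹) ^ q = 1 := by
    rw [mul_pow, he μ hμ, inv_pow, hν]; simp
  rw [← Finset.mul_sum, geom_root q (e μ * ν⁻¹) h3]
  have h2 : (e μ * ν⁻¹ = 1) ↔ e μ = ν := by
    constructor
    · intro h
      calc e μ = e μ * ν⁻¹ * ν := by field_simp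
        _ = ν := by rw [h, one_mul]
    · intro h; rw [h]; exact mul_inv_cancel₀ hν0
  by_cases h : e μ = ν
  · rw [if_pos (h2.mpr h), if_pos h]; ring
  · rw [if_neg (fun h' => h (h2.mp h')), if_neg h]; ring

theorem fixed_of_mem_adjoin (φ : ℂ →+* ℂ) (z : ℂ) (hz : φ z = z) (x : ℂ)
    (hx : x ∈ IntermediateField.adjoin ℚ ({z} : Set ℂ)) : φ x = x := by
  induction hx using IntermediateField.adjoin_induction with
  | mem y hy => rw [Set.mem_singleton_iff.mp hy]; exact hz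
  | algebraMap q => exact map_ratCast φ q
  | add x y _ _ hx hy => rw [map_add, hx, hy]
  | inv x _ hx => rw [map_inv₀, hx]
  | mul x y _ _ hx hy => rw [map_mul, hx, hy]

theorem pow_modEq (z : ℂ) (N a b : ℕ) (hz : z ^ N = 1) (h : a ≡ b [MOD N]) : z ^ a = z ^ b := by
  have h1 : ∀ c : ℕ, z ^ c = z ^ (c % N) := by
    intro c
    conv_lhs => rw [← Nat.mod_add_div c N]
    rw [pow_add, pow_mul, hz, one_pow, mul_one]
  rw [h1 a, h1 b, h]

theorem sum_split {β : Type*} [AddCommMonoid β] (M p : ℕ) (f : ℕ → β) :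
    ∑ i ∈ Finset.range (M * p), f i
      = ∑ b ∈ Finset.range M, ∑ c ∈ Finset.range p, f (M * c + b) := by
  induction p with
  | zero => simp
  | succ n ih =>
    rw [Nat.mul_succ, Finset.sum_range_add, ih, ← Finset.sum_add_distrib]
    refine Finset.sum_congr rfl (fun b _ => ?_)
    rw [Finset.sum_range_succ]

end Cfsg.Agent.Lib.Helper23.Schur
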