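import Mathlib
import Cfsg.Agent.Lib.Helper23.Schur1

set_option autoImplicit false

namespace Cfsg.Agent.Lib.Helper23.Schur

open Cfsg

theorem per_mul (q : ℕ) (a : ℕ → ℕ) (hper : ∀ i, a (i + q) = a i) (i z : ℕ) :
    a (i + q * z) = a i := by
  induction z with
  | zero => simp
  | succ n ih => rw [Nat.mul_succ, ← add_assoc, hper, ih]

theorem transl (p k : ℕ) (hp : p.Prime) (hk : 0 < k) (a : ℕ → ℕ)
    (hper : ∀ i, a (i + p ^ k) = a i) (hinv : ∀ i u, u.Coprime p → a (i * u) = a i)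
    (i : ℕ) (hi : ¬ p ^ (k - 1) ∣ i) : a (i + p ^ (k - 1)) = a i := by
  have hi0 : i ≠ 0 := by rintro rfl; exact hi (dvd_zero _)
  obtain ⟨v, i', hi', rfl⟩ := Nat.exists_eq_pow_mul_and_not_dvd hi0 p hp.ne_one
  have hv : v < k - 1 := by
    by_contra hcon
    rw [not_lt] at hcon
    exact hi (Dvd.dvd.mul_right (pow_dvd_pow p hcon) i')
  have hcop : Nat.Coprime i' p := ((Nat.Prime.coprime_iff_not_dvd hp).mpr hi').symm
  obtain ⟨w, -, hw⟩ := Nat.exists_mul_mod_eq_one_of_coprime hcop hp.one_lt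
  have hw' : i' * w = 1 + p * (i' * w / p) := by
    have := Nat.mod_add_div (i' * w) p
    rw [hw] at this
    exact this.symm
  set z := i' * w / p with hz
  set u := 1 + p ^ (k - 1 - v) * w with hu
  have hucop : u.Coprime p := by
    refine ((Nat.Prime.coprime_iff_not_dvd hp).mpr ?_).symm
    intro hdvd
    have h1 : p ∣ p ^ (k - 1 - v) * w :=
      Dvd.dvd.mul_right (dvd_pow_self p (by omega)) w
    have h2 : p ∣ 1 := (Nat.dvd_add_left h1).mp hdvd
    exact hp.one_lt.ne' (Nat.dvd_one.mp h2)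
  have hpk : p ^ k = p ^ (k - 1) * p := by
    rw [← pow_succ]; congr 1; omega
  have hpv : p ^ (k - 1) = p ^ v * p ^ (k - 1 - v) := by
    rw [← pow_add]; congr 1; omega
  have key : p ^ v * i' * u = p ^ v * i' + p ^ (k - 1) + p ^ k * z := by
    rw [hu, hpk, hpv]
    have : p ^ v * i' * (1 + p ^ (k - 1 - v) * w)
        = p ^ v * i' + p ^ v * p ^ (k - 1 - v) * (i' * w) := by ring
    rw [this, hw']
    ring
  have h1 := hinv (p ^ v * i') u hucop
  rw [key, per_mul (p ^ k) a hper] at h1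
  exact h1

theorem transl' (p k : ℕ) (hp : p.Prime) (hk : 0 < k) (a : ℕ → ℕ)
    (hper : ∀ i, a (i + p ^ k) = a i) (hinv : ∀ i u, u.Coprime p → a (i * u) = a i)
    (c b : ℕ) (hb0 : 0 < b) (hb : b < p ^ (k - 1)) : a (p ^ (k - 1) * c + b) = a b := by
  induction c with
  | zero => simp
  | succ n ih =>
    have h1 : p ^ (k - 1) * (n + 1) + b = (p ^ (k - 1) * n + b) + p ^ (k - 1) := by ring
    rw [h1, transl p k hp hk a hper hinv, ih]
    intro hdvd
    have h2 : p ^ (k - 1) ∣ b := (Nat.dvd_add_right (dvd_mul_right _ _)).mp hdvd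
    exact absurd (Nat.le_of_dvd hb0 h2) (not_le.mpr hb)

theorem comb (p k : ℕ) (hp : p.Prime) (hk : 0 < k) (ω : ℂ) (hω : IsPrimitiveRoot ω (p ^ k))
    (a : ℕ → ℕ) (hper : ∀ i, a (i + p ^ k) = a i)
    (hinv : ∀ i u, u.Coprime p → a (i * u) = a i) :
    ∃ y : ℕ, (∑ i ∈ Finset.range (p ^ k), (a i : ℂ))
        - ∑ i ∈ Finset.range (p ^ k), (a i : ℂ) * ω ^ i = (p : ℂ) * y
      ∧ (p - 1) * y ≤ ∑ i ∈ Finset.range (p ^ k), a i := by
  obtain ⟨M', hM'⟩ : ∃ M', p ^ (k - 1) = M' + 1 :=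
    ⟨p ^ (k - 1) - 1, (Nat.succ_pred_eq_of_pos (pow_pos hp.pos _)).symm⟩
  obtain ⟨p', hp'⟩ : ∃ p', p = p' + 1 := ⟨p - 1, (Nat.succ_pred_eq_of_pos hp.pos).symm⟩
  have hpk : p ^ k = p ^ (k - 1) * p := by
    rw [← pow_succ]; congr 1; omega
  set M := p ^ (k - 1) with hM
  have hε : IsPrimitiveRoot (ω ^ M) p := IsPrimitiveRoot.pow (pow_pos hp.pos k) hω hpk
  have hgeom : ∑ c ∈ Finset.range p, (ω ^ M) ^ c = 0 := hε.geom_sum_eq_zero hp.one_lt
  have hunit : ∀ c, c < p' → a (M * (c + 1)) = a M := by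
    intro c hc
    refine hinv M (c + 1) ?_
    refine ((Nat.Prime.coprime_iff_not_dvd hp).mpr ?_).symm
    exact Nat.not_dvd_of_pos_of_lt (Nat.succ_pos c) (by omega)
  have hrange : Finset.range M = Finset.range (M' + 1) := by rw [hM']
  have hb_sum : ∀ b, 0 < b → b < M → ∑ c ∈ Finset.range p, a (M * c + b) = p * a b := by
    intro b hb0 hb
    have h1 : ∀ c ∈ Finset.range p, a (M * c + b) = a b :=
      fun c _ => transl' p k hp hk a hper hinv c b hb0 hb
    rw [Finset.sum_congr rfl h1, Finset.sum_const, Finset.card_range, smul_eq_mul]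
  have h0_sum : ∑ c ∈ Finset.range p, a (M * c + 0) = p' * a M + a 0 := by
    rw [hp', Finset.sum_range_succ']
    simp only [add_zero, mul_zero]
    have h1 : ∀ c ∈ Finset.range p', a (M * (c + 1)) = a M :=
      fun c hc => hunit c (Finset.mem_range.mp hc)
    rw [Finset.sum_congr rfl h1, Finset.sum_const, Finset.card_range, smul_eq_mul]
  have hnat : ∑ i ∈ Finset.range (p ^ k), a i
      = p * (∑ b ∈ Finset.range M', a (b + 1)) + p' * a M + a 0 := by
    rw [hpk, sum_split, hrange, Finset.sum_range_succ', h0_sum, ← add_assoc, Finset.mul_sum]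
    congr 2
    refine Finset.sum_congr rfl (fun b hb => ?_)
    have hb' : b + 1 < M := by
      have := Finset.mem_range.mp hb
      omega
    exact hb_sum (b + 1) (Nat.succ_pos b) hb'
  have hcb : ∀ b, 0 < b → b < M →
      ∑ c ∈ Finset.range p, (a (M * c + b) : ℂ) * ω ^ (M * c + b) = 0 := by
    intro b hb0 hb
    have h2 : ∀ c ∈ Finset.range p, (a (M * c + b) : ℂ) * ω ^ (M * c + b)
        = (a b : ℂ) * ω ^ b * (ω ^ M) ^ c := by
      intro c _
      rw [transl' p k hp hk a hper hinv c b hb0 hb, pow_add, pow_mul]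
      ring
    rw [Finset.sum_congr rfl h2, ← Finset.mul_sum, hgeom, mul_zero]
  have hc0 : ∑ c ∈ Finset.range p, (a (M * c + 0) : ℂ) * ω ^ (M * c + 0)
      = (a 0 : ℂ) - (a M : ℂ) := by
    have h3 : ∑ c ∈ Finset.range p, (a (M * c + 0) : ℂ) * ω ^ (M * c + 0)
        = (a 0 : ℂ) + (a M : ℂ) * (∑ c ∈ Finset.range p, (ω ^ M) ^ c - 1) := by
      rw [hp', Finset.sum_range_succ', Finset.sum_range_succ' (fun c => (ω ^ M) ^ c)]
      simp only [mul_zero, pow_zero, mul_one, add_sub_cancel_right, add_zero]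
      rw [add_comm, Finset.mul_sum]
      congr 1
      refine Finset.sum_congr rfl (fun c hc => ?_)
      rw [hunit c (Finset.mem_range.mp hc), pow_mul]
    rw [h3, hgeom]
    ring
  have hcpx : ∑ i ∈ Finset.range (p ^ k), (a i : ℂ) * ω ^ i = (a 0 : ℂ) - (a M : ℂ) := by
    rw [hpk, sum_split, hrange, Finset.sum_range_succ', hc0]
    have h1 : ∑ b ∈ Finset.range M', ∑ c ∈ Finset.range p,
        (a (M * c + (b + 1)) : ℂ) * ω ^ (M * c + (b + 1)) = 0 := by
      refine Finset.sum_eq_zero (fun b hb => ?_)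
      have hb' : b + 1 < M := by
        have := Finset.mem_range.mp hb
        omega
      exact hcb (b + 1) (Nat.succ_pos b) hb'
    rw [h1, zero_add]
  refine ⟨(∑ b ∈ Finset.range M', a (b + 1)) + a M, ?_, ?_⟩
  · rw [hcpx, ← Nat.cast_sum, hnat]
    have hpc : (p : ℂ) = (p' : ℂ) + 1 := by rw [hp']; push_cast; ring
    push_cast
    rw [hpc]
    ring
  · rw [hnat]
    have h1 : p - 1 = p' := by omega
    rw [h1]
    have h2 : p' ≤ p := by omega
    nlinarith [Nat.mul_le_mul_right (∑ b ∈ Finset.range M', a (b + 1)) h2]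

end Cfsg.Agent.Lib.Helper23.Schur
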