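import Mathlib
import Cfsg.Agent.Lib.Helper23.Schur2

set_option autoImplicit false

namespace Cfsg.Agent.Lib.Helper23.Schur

open Cfsg

theorem pow_inj_root (q m : ℕ) (hq : 0 < q) (hm : m.Coprime q) (μ ν : ℂ) (hμ : μ ^ q = 1)
    (hν : ν ^ q = 1) (h : μ ^ m = ν ^ m) : μ = ν := by
  obtain ⟨t, -, ht⟩ := Nat.exists_mul_mod_eq_of_coprime 1 hm hq.ne'
  have ht' : m * t ≡ 1 [MOD q] := ht
  calc μ = μ ^ 1 := (pow_one μ).symm
    _ = μ ^ (m * t) := (pow_modEq μ q (m * t) 1 hμ ht').symm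
    _ = ν ^ (m * t) := by rw [pow_mul, h, ← pow_mul]
    _ = ν ^ 1 := pow_modEq ν q (m * t) 1 hν ht'
    _ = ν := pow_one ν

theorem sum_filter_eq_ite (s : Finset ℂ) (d : ℂ → ℕ) (ν : ℂ) :
    ∑ μ ∈ s.filter (fun μ => μ = ν), (d μ : ℂ) = ((if ν ∈ s then d ν else 0 : ℕ) : ℂ) := by
  classical
  rw [Finset.filter_eq']
  split_ifs with h
  · simp
  · simp

theorem mult_inv {G : Type*} [Group G] (p : ℕ) (hp : p.Prime) (r : ℕ) (hr : 0 < r)
    (hpr : ¬ p ∣ r) (χ : G → ℂ)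
    (hrat : ∀ g : G, χ g ∈ IntermediateField.adjoin ℚ
      ({Complex.exp (2 * Real.pi * Complex.I / r)} : Set ℂ))
    (g : G) (k : ℕ) (s : Finset ℂ) (d : ℂ → ℕ) (h1 : ∀ μ ∈ s, μ ^ (p ^ k) = 1)
    (h3 : ∀ j : ℕ, χ (g ^ j) = ∑ μ ∈ s, (d μ : ℂ) * μ ^ j)
    (ν : ℂ) (hν : ν ^ (p ^ k) = 1) (u : ℕ) (hu : u.Coprime p) :
    (if ν ^ u ∈ s then d (ν ^ u) else 0) = (if ν ∈ s then d ν else 0) := by
  classical
  have hq : 0 < p ^ k := pow_pos hp.pos k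
  have hcop_rq : Nat.Coprime r (p ^ k) :=
    Nat.Coprime.pow_right k ((Nat.Prime.coprime_iff_not_dvd hp).mpr hpr).symm
  obtain ⟨m0, hm1, hm2⟩ := Nat.chineseRemainder hcop_rq 1 u
  have hc1 : m0.Coprime r := by
    rw [Nat.Coprime, hm1.gcd_eq]; exact Nat.gcd_one_left r
  have hc2 : m0.Coprime (p ^ k) := by
    rw [Nat.Coprime, hm2.gcd_eq]; exact Nat.Coprime.pow_right k hu
  have hcop : m0.Coprime (r * p ^ k) := Nat.Coprime.mul_right hc1 hc2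
  obtain ⟨φ, hφ⟩ := Cfsg.Agent.Lib.Helper10.GalConj.exists_ringHom_pow (r * p ^ k) m0
    (Nat.mul_pos hr hq) hcop
  set ζ := Complex.exp (2 * Real.pi * Complex.I / r) with hζdef
  have hζr : ζ ^ r = 1 := (Complex.isPrimitiveRoot_exp r hr.ne').pow_eq_one
  have hφζ : φ ζ = ζ := by
    rw [hφ ζ (by rw [pow_mul, hζr, one_pow]), pow_modEq ζ r m0 1 hζr hm1, pow_one]
  have hφμ : ∀ μ ∈ s, φ μ = μ ^ m0 := by
    intro μ hμ
    refine hφ μ ?_
    rw [mul_comm, pow_mul, h1 μ hμ, one_pow]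
  have hEq : ∀ j : ℕ, ∑ μ ∈ s, (d μ : ℂ) * (μ ^ m0) ^ j = ∑ μ ∈ s, (d μ : ℂ) * μ ^ j := by
    intro j
    have e1 := fixed_of_mem_adjoin φ ζ hφζ (χ (g ^ j)) (hrat (g ^ j))
    rw [h3 j, map_sum] at e1
    rw [← e1]
    refine Finset.sum_congr rfl (fun μ hμ => ?_)
    rw [map_mul, map_natCast, map_pow, hφμ μ hμ]
  have hν' : (ν ^ m0) ^ (p ^ k) = 1 := by rw [← pow_mul, mul_comm, pow_mul, hν, one_pow]
  have F1 := fourier (p ^ k) hq s (fun μ => (d μ : ℂ)) (fun μ => μ ^ m0)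
    (fun μ hμ => by
      show (μ ^ m0) ^ (p ^ k) = 1
      rw [← pow_mul, mul_comm, pow_mul, h1 μ hμ, one_pow]) (ν ^ m0) hν'
  have F2 := fourier (p ^ k) hq s (fun μ => (d μ : ℂ)) (fun μ => μ) h1 (ν ^ m0) hν'
  have hL : ∑ j ∈ Finset.range (p ^ k), (∑ μ ∈ s, (d μ : ℂ) * (μ ^ m0) ^ j) * ((ν ^ m0)⁻¹) ^ j
      = ∑ j ∈ Finset.range (p ^ k), (∑ μ ∈ s, (d μ : ℂ) * μ ^ j) * ((ν ^ m0)⁻¹) ^ j :=
    Finset.sum_congr rfl (fun j _ => by rw [hEq j])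
  have hq0 : ((p ^ k : ℕ) : ℂ) ≠ 0 := by exact_mod_cast hq.ne'
  have hsum : ∑ μ ∈ s.filter (fun μ => μ ^ m0 = ν ^ m0), (d μ : ℂ)
      = ∑ μ ∈ s.filter (fun μ => μ = ν ^ m0), (d μ : ℂ) := by
    have := F1.symm.trans (hL.trans F2)
    exact mul_left_cancel₀ hq0 this
  have hfilt : s.filter (fun μ => μ ^ m0 = ν ^ m0) = s.filter (fun μ => μ = ν) := by
    refine Finset.filter_congr (fun μ hμ => ?_)
    constructor
    · intro h
      exact pow_inj_root (p ^ k) m0 hq hc2 μ ν (h1 μ hμ) hν h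
    · intro h; rw [h]
  rw [hfilt, sum_filter_eq_ite, sum_filter_eq_ite, pow_modEq ν (p ^ k) m0 u hν hm2] at hsum
  exact (Nat.cast_injective hsum).symm

theorem value {G : Type*} [Group G] [Finite G] (p : ℕ) (hp : p.Prime) (χ : G → ℂ)
    (hχ : Cfsg.IsCharacter G χ) (r : ℕ) (hr : 0 < r) (hpr : ¬ p ∣ r)
    (hrat : ∀ g : G, χ g ∈ IntermediateField.adjoin ℚ
      ({Complex.exp (2 * Real.pi * Complex.I / r)} : Set ℂ))
    (g : G) (k : ℕ) (hk : 0 < k) (hg : orderOf g = p ^ k) :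
    ∃ y : ℕ, χ 1 - χ g = (p : ℂ) * y ∧ (p - 1) * y ≤ Cfsg.charDegree χ := by
  classical
  have hdeg := Cfsg.Agent.Lib.Helper24.CharBasic.char_one_nat hχ
  obtain ⟨n, ρ, rfl⟩ := hχ
  obtain ⟨s, d, h1, h2, h3, h4, -⟩ := Cfsg.Agent.Lib.Helper1.char_spectral ρ g
  rw [hg] at h1
  have hq : 0 < p ^ k := pow_pos hp.pos k
  set ω := Complex.exp (2 * Real.pi * Complex.I / ((p ^ k : ℕ) : ℂ)) with hωdef
  have hω : IsPrimitiveRoot ω (p ^ k) := Complex.isPrimitiveRoot_exp (p ^ k) hq.ne'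
  haveI : NeZero (p ^ k) := ⟨hq.ne'⟩
  set D : ℂ → ℕ := fun ν => if ν ∈ s then d ν else 0 with hD
  set a : ℕ → ℕ := fun i => D (ω ^ i) with ha
  have hper : ∀ i, a (i + p ^ k) = a i := by
    intro i
    show D (ω ^ (i + p ^ k)) = D (ω ^ i)
    rw [pow_add, hω.pow_eq_one, mul_one]
  have hinv : ∀ i u, u.Coprime p → a (i * u) = a i := by
    intro i u hu
    show D (ω ^ (i * u)) = D (ω ^ i)
    rw [pow_mul]
    exact mult_inv p hp r hr hpr ρ.character hrat g k s d h1 h3 (ω ^ i)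
      (by rw [← pow_mul, mul_comm, pow_mul, hω.pow_eq_one, one_pow]) u hu
  obtain ⟨y, hy1, hy2⟩ := comb p k hp hk ω hω a hper hinv
  have hP3 : ∀ F : ℂ → ℂ, ∑ i ∈ Finset.range (p ^ k), (a i : ℂ) * F (ω ^ i)
      = ∑ μ ∈ s, (d μ : ℂ) * F μ := by
    intro F
    have hinj : Set.InjOn (fun i : ℕ => ω ^ i) (Finset.range (p ^ k) : Set ℕ) := by
      intro i hi j hj hij
      exact hω.pow_inj (Finset.mem_range.mp (Finset.mem_coe.mp hi))
        (Finset.mem_range.mp (Finset.mem_coe.mp hj)) hij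
    have e1 : ∑ i ∈ Finset.range (p ^ k), (a i : ℂ) * F (ω ^ i)
        = ∑ ν ∈ (Finset.range (p ^ k)).image (fun i : ℕ => ω ^ i), (D ν : ℂ) * F ν :=
      (Finset.sum_image (f := fun ν => (D ν : ℂ) * F ν) hinj).symm
    have hsub : s ⊆ (Finset.range (p ^ k)).image (fun i : ℕ => ω ^ i) := by
      intro μ hμ
      obtain ⟨i, hi, hiμ⟩ := hω.eq_pow_of_pow_eq_one (h1 μ hμ)
      exact Finset.mem_image.mpr ⟨i, Finset.mem_range.mpr hi, hiμ⟩
    have e2 : ∑ ν ∈ s, (D ν : ℂ) * F ν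
        = ∑ ν ∈ (Finset.range (p ^ k)).image (fun i : ℕ => ω ^ i), (D ν : ℂ) * F ν := by
      refine Finset.sum_subset hsub (fun ν _ hν => ?_)
      have : D ν = 0 := if_neg hν
      rw [this]; simp
    rw [e1, ← e2]
    refine Finset.sum_congr rfl (fun μ hμ => ?_)
    have : D μ = d μ := if_pos hμ
    rw [this]
  have hA : ∑ i ∈ Finset.range (p ^ k), (a i : ℂ) = ρ.character 1 := by
    have := hP3 (fun _ => 1)
    simp only [mul_one] at this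
    rw [this]
    have e := h3 0
    simp only [pow_zero, mul_one] at e
    exact e.symm
  have hB : ∑ i ∈ Finset.range (p ^ k), (a i : ℂ) * ω ^ i = ρ.character g := by
    have := hP3 (fun z => z)
    rw [this]
    have e := h3 1
    simp only [pow_one] at e
    exact e.symm
  refine ⟨y, ?_, ?_⟩
  · rw [← hA, ← hB]; exact hy1
  · have : (Cfsg.charDegree ρ.character : ℂ)
        = ((∑ i ∈ Finset.range (p ^ k), a i : ℕ) : ℂ) := by
      rw [← hdeg, ← hA]; push_cast; rfl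
    rw [Nat.cast_injective this]
    exact hy2

end Cfsg.Agent.Lib.Helper23.Schur
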